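/-
A covering argument for the graph on the cosets of a subgroup.
-/
import Cfsg.Agent.EqAll

set_option autoImplicit false

namespace CA.Co1

variable {X R : Type*} [Group X] [Group R]

/-- the double coset of `ξ` -/
def DD (M : Subgroup X) (ξ d : X) : Prop := ∃ a ∈ M, ∃ b ∈ M, d = a * ξ * b

/-- products of `k` elements of the double coset -/
def DL (M : Subgroup X) (ξ : X) : ℕ → X → Prop
  | 0, g => g ∈ M
  | k + 1, g => ∃ u, DL M ξ k u ∧ DD M ξ (u⁻¹ * g)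

variable {M H : Subgroup X} {ξ : X}

theorem DD.left {d a : X} (h : DD M ξ d) (ha : a ∈ M) : DD M ξ (a * d) := by
  obtain ⟨b, hb, c, hc, rfl⟩ := h
  exact ⟨a * b, mul_mem ha hb, c, hc, by group⟩

theorem DD.right {d a : X} (h : DD M ξ d) (ha : a ∈ M) : DD M ξ (d * a) := by
  obtain ⟨b, hb, c, hc, rfl⟩ := h
  exact ⟨b, hb, c * a, mul_mem hc ha, by group⟩

theorem DD.inv (h2 : ξ * ξ = 1) {d : X} (h : DD M ξ d) : DD M ξ d⁻¹ := by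
  obtain ⟨b, hb, c, hc, rfl⟩ := h
  exact ⟨c⁻¹, inv_mem hc, b⁻¹, inv_mem hb, by rw [mul_inv_rev, mul_inv_rev, inv_eq_of_mul_eq_one_left h2, mul_assoc]⟩

theorem DD.swap (h2 : ξ * ξ = 1) {a b : X} (h : DD M ξ (a⁻¹ * b)) : DD M ξ (b⁻¹ * a) := by
  simpa using h.inv h2

theorem DD_self : DD M ξ ξ := ⟨1, one_mem _, 1, one_mem _, by simp⟩

theorem DL.left {k : ℕ} {g a : X} (h : DL M ξ k g) (ha : a ∈ M) : DL M ξ k (a * g) := by
  induction k generalizing g with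
  | zero => exact mul_mem ha h
  | succ k ih =>
    obtain ⟨u, h1, h2⟩ := h
    exact ⟨a * u, ih h1, by simpa [mul_assoc] using h2⟩

theorem DL.right {k : ℕ} {g a : X} (h : DL M ξ k g) (ha : a ∈ M) : DL M ξ k (g * a) := by
  cases k with
  | zero => exact mul_mem h ha
  | succ k =>
    obtain ⟨u, h1, h2⟩ := h
    exact ⟨u, h1, by simpa [mul_assoc] using h2.right ha⟩

theorem DL.of {k : ℕ} {g h : X} (hg : DL M ξ k g) (e : g⁻¹ * h ∈ M) : DL M ξ k h := by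
  simpa using hg.right e

theorem DL_one {g : X} : DL M ξ 1 g ↔ DD M ξ g :=
  ⟨fun ⟨u, h1, h2⟩ => by simpa using h2.left (show u ∈ M from h1), fun h => ⟨1, one_mem M, by simpa using h⟩⟩

/-- neighbours of `g` of level `k` that are adjacent or equal -/
def Lk (M : Subgroup X) (ξ : X) (k : ℕ) (g a b : X) : Prop :=
  (DL M ξ k a ∧ DD M ξ (a⁻¹ * g)) ∧ (DL M ξ k b ∧ DD M ξ (b⁻¹ * g)) ∧ (DD M ξ (a⁻¹ * b) ∨ a⁻¹ * b ∈ M)

def Conn (M : Subgroup X) (ξ : X) (k : ℕ) (g : X) : Prop :=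
  ∀ a b, DL M ξ k a → DD M ξ (a⁻¹ * g) → DL M ξ k b → DD M ξ (b⁻¹ * g) → Relation.ReflTransGen (Lk M ξ k g) a b

def CN (M : Subgroup X) (ξ : X) (k : ℕ) (g h : X) : Prop :=
  ∃ u, DL M ξ k u ∧ DD M ξ (u⁻¹ * g) ∧ DD M ξ (u⁻¹ * h)

/-- triangles lie in conjugates of `H` -/
def Tri (M H : Subgroup X) (ξ : X) : Prop :=
  ∀ d, DD M ξ d → DD M ξ (ξ * d) → ∃ s ∈ M, ξ * s * ξ ∈ M ∧ ∃ a ∈ M, a ∈ H ∧ (s * (a * ξ))⁻¹ * d ∈ M ∧
    ∃ m ∈ M, m ∈ H ∧ (m * ξ)⁻¹ * (ξ * (a * ξ)) ∈ M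

structure LC (M H : Subgroup X) (ξ : X) (p : R →* X) (θ : X → R) : Prop where
  sq : ξ * ξ = 1
  xH : ξ ∈ H
  pr : ∀ g, p (θ g) = g
  mM : ∀ a ∈ M, ∀ b ∈ M, θ (a * b) = θ a * θ b
  mH : ∀ a ∈ H, ∀ b ∈ H, θ (a * b) = θ a * θ b
  st : ∀ s ∈ M, ξ * s * ξ ∈ M → θ ξ * θ s * θ ξ = θ (ξ * s * ξ)
  tri : Tri M H ξ

variable {p : R →* X} {θ : X → R}

def Eqv (M : Subgroup X) (θ : X → R) (r r' : R) : Prop := ∃ a ∈ M, r' = r * θ a

def Adj (M : Subgroup X) (ξ : X) (θ : X → R) (r r' : R) : Prop := ∃ a ∈ M, ∃ b ∈ M, r' = r * θ a * θ ξ * θ b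

def Lv (M : Subgroup X) (ξ : X) (θ : X → R) : ℕ → R → Prop
  | 0, r => Eqv M θ 1 r
  | k + 1, r => ∃ u, Lv M ξ θ k u ∧ Adj M ξ θ u r

def Sec (M : Subgroup X) (ξ : X) (p : R →* X) (θ : X → R) (k : ℕ) : Prop :=
  ∀ r r', Lv M ξ θ k r → Lv M ξ θ k r' → (p r)⁻¹ * p r' ∈ M → Eqv M θ r r'

def Full (M : Subgroup X) (ξ : X) (p : R →* X) (θ : X → R) (k : ℕ) : Prop :=
  ∀ r r', Lv M ξ θ k r → Lv M ξ θ k r' → DD M ξ ((p r)⁻¹ * p r') → Adj M ξ θ r r'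

theorem Adj.left {r r' : R} (h : Adj M ξ θ r r') (x : R) : Adj M ξ θ (x * r) (x * r') := by
  obtain ⟨a, ha, b, hb, rfl⟩ := h
  exact ⟨a, ha, b, hb, by group⟩

namespace LC

variable (c : LC M H ξ p θ)
include c

theorem one : θ 1 = 1 := by simpa using c.mM 1 (one_mem _) 1 (one_mem _)

theorem inv {a : X} (h : a ∈ M) : θ a⁻¹ = (θ a)⁻¹ :=
  eq_inv_of_mul_eq_one_left (by rw [← c.mM _ (inv_mem h) _ h, inv_mul_cancel, c.one])

theorem xx : θ ξ * θ ξ = 1 := by rw [← c.mH _ c.xH _ c.xH, c.sq, c.one]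

theorem erefl (r : R) : Eqv M θ r r := ⟨1, one_mem _, by rw [c.one, mul_one]⟩

theorem esymm {r r' : R} (h : Eqv M θ r r') : Eqv M θ r' r := by
  obtain ⟨a, ha, rfl⟩ := h
  exact ⟨a⁻¹, inv_mem ha, by rw [c.inv ha]; group⟩

theorem etrans {r r' r'' : R} (h : Eqv M θ r r') (h' : Eqv M θ r' r'') : Eqv M θ r r'' := by
  obtain ⟨a, ha, rfl⟩ := h
  obtain ⟨b, hb, rfl⟩ := h'
  exact ⟨a * b, mul_mem ha hb, by rw [c.mM _ ha _ hb, mul_assoc]⟩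

theorem ae {r r' r'' : R} (h : Adj M ξ θ r r') (h' : Eqv M θ r' r'') : Adj M ξ θ r r'' := by
  obtain ⟨a, ha, b, hb, rfl⟩ := h
  obtain ⟨d, hd, rfl⟩ := h'
  exact ⟨a, ha, b * d, mul_mem hb hd, by rw [c.mM _ hb _ hd, mul_assoc]⟩

theorem asymm {r r' : R} (h : Adj M ξ θ r r') : Adj M ξ θ r' r := by
  obtain ⟨a, ha, b, hb, rfl⟩ := h
  refine ⟨b⁻¹, inv_mem hb, a⁻¹, inv_mem ha, ?_⟩
  rw [c.inv ha, c.inv hb, mul_inv_cancel_right, mul_assoc (r * θ a), c.xx, mul_one, mul_inv_cancel_right]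

theorem ea {r r' r'' : R} (h : Eqv M θ r r') (h' : Adj M ξ θ r' r'') : Adj M ξ θ r r'' :=
  c.asymm (c.ae (c.asymm h') (c.esymm h))

theorem pe {r r' : R} (h : Eqv M θ r r') : (p r)⁻¹ * p r' ∈ M := by
  obtain ⟨a, ha, rfl⟩ := h
  simpa [c.pr] using ha

theorem pa {r r' : R} (h : Adj M ξ θ r r') : DD M ξ ((p r)⁻¹ * p r') := by
  obtain ⟨a, ha, b, hb, rfl⟩ := h
  exact ⟨a, ha, b, hb, by simp [c.pr, mul_assoc]⟩

theorem lift {r : R} {g : X} (h : DD M ξ ((p r)⁻¹ * g)) : ∃ r', Adj M ξ θ r r' ∧ p r' = g := by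
  obtain ⟨a, ha, b, hb, e⟩ := h
  exact ⟨_, ⟨a, ha, b, hb, rfl⟩, by simp only [map_mul, c.pr]; rw [mul_assoc, mul_assoc, ← mul_assoc a, ← e]; group⟩

theorem uniq {r r1 r2 : R} (h1 : Adj M ξ θ r r1) (h2 : Adj M ξ θ r r2) (e : (p r1)⁻¹ * p r2 ∈ M) : Eqv M θ r1 r2 := by
  obtain ⟨a, ha, b, hb, rfl⟩ := h1
  obtain ⟨a', ha', b', hb', rfl⟩ := h2
  have i : ξ⁻¹ = ξ := inv_eq_of_mul_eq_one_left c.sq
  have m : ξ * (a⁻¹ * a') * ξ ∈ M := by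
    have := mul_mem (mul_mem hb e) (inv_mem hb')
    simpa [c.pr, mul_assoc, i] using this
  have k := c.st _ (mul_mem (inv_mem ha) ha') m
  refine ⟨b⁻¹ * (ξ * (a⁻¹ * a') * ξ) * b', mul_mem (mul_mem (inv_mem hb) m) hb', ?_⟩
  rw [c.mM _ (mul_mem (inv_mem hb) m) _ hb', c.mM _ (inv_mem hb) _ m, ← k, c.mM _ (inv_mem ha) _ ha', c.inv ha, c.inv hb]
  calc _ = r * θ a * (θ ξ * θ ξ) * ((θ a)⁻¹ * θ a') * θ ξ * θ b' := by rw [c.xx]; group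
    _ = _ := by group

theorem tri0 {r : R} (h : Adj M ξ θ 1 r) (e : DD M ξ (ξ * p r)) : Adj M ξ θ (θ ξ) r := by
  have i : ξ⁻¹ = ξ := inv_eq_of_mul_eq_one_left c.sq
  have h0 : DD M ξ (ξ * (ξ * p r)) := by simpa [← mul_assoc, c.sq] using c.pa h
  obtain ⟨s, hs, hs', a, ha, aH, e1, m, hm, mH, e2⟩ := c.tri _ e h0
  have bH : (m * ξ)⁻¹ * (ξ * (a * ξ)) ∈ H :=
    mul_mem (inv_mem (mul_mem mH c.xH)) (mul_mem c.xH (mul_mem aH c.xH))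
  have k1 : θ m * θ ξ * θ ((m * ξ)⁻¹ * (ξ * (a * ξ))) = θ ξ * θ a * θ ξ := by
    rw [← c.mH _ mH _ c.xH, ← c.mH _ (mul_mem mH c.xH) _ bH, mul_inv_cancel_left, c.mH _ c.xH _ (mul_mem aH c.xH),
      c.mH _ aH _ c.xH, mul_assoc]
  have a1 : Adj M ξ θ 1 (θ ξ * θ (s * a) * θ ξ * θ 1) := ⟨ξ * s * ξ * m, mul_mem hs' hm, _, e2, by
    rw [c.mM _ hs' _ hm, c.mM _ hs _ ha, ← c.st _ hs hs', c.one, one_mul, mul_one, mul_assoc _ (θ m),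
      mul_assoc _ (θ m * θ ξ), k1]
    calc _ = θ ξ * θ s * (θ ξ * θ ξ) * θ a * θ ξ := by rw [c.xx]; group
      _ = _ := by group⟩
  refine c.ae ⟨s * a, mul_mem hs ha, 1, one_mem _, rfl⟩ (c.uniq a1 h ?_)
  simpa [c.pr, mul_assoc, i] using e1

theorem tri' {r r1 r2 : R} (h1 : Adj M ξ θ r r1) (h2 : Adj M ξ θ r r2) (e : DD M ξ ((p r1)⁻¹ * p r2)) :
    Adj M ξ θ r1 r2 := by
  have i : ξ⁻¹ = ξ := inv_eq_of_mul_eq_one_left c.sq
  obtain ⟨a, ha, b, hb, rfl⟩ := h1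
  have k : Adj M ξ θ 1 ((r * θ a)⁻¹ * r2) := by
    have := (c.ea (c.esymm ⟨a, ha, rfl⟩) h2).left (r * θ a)⁻¹
    rwa [inv_mul_cancel] at this
  have := (c.tri0 k (by simpa [c.pr, mul_assoc, i] using e.left hb)).left (r * θ a)
  rw [mul_inv_cancel_left] at this
  exact c.ea (c.esymm ⟨b, hb, rfl⟩) this

theorem Lv_eqv {k : ℕ} {r r' : R} (h : Lv M ξ θ k r) (e : Eqv M θ r r') : Lv M ξ θ k r' := by
  cases k with
  | zero => exact c.etrans h e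
  | succ k =>
    obtain ⟨u, h1, h2⟩ := h
    exact ⟨u, h1, c.ae h2 e⟩

theorem Lv_DL {k : ℕ} {r : R} (h : Lv M ξ θ k r) : DL M ξ k (p r) := by
  induction k generalizing r with
  | zero => exact show p r ∈ M by simpa using c.pe h
  | succ k ih =>
    obtain ⟨u, h1, h2⟩ := h
    exact ⟨_, ih h1, c.pa h2⟩

theorem DL_Lv {k : ℕ} {g : X} (h : DL M ξ k g) : ∃ r, Lv M ξ θ k r ∧ p r = g := by
  induction k generalizing g with
  | zero => exact ⟨θ g, ⟨g, h, (one_mul _).symm⟩, c.pr g⟩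
  | succ k ih =>
    obtain ⟨u, h1, h2⟩ := h
    obtain ⟨s, s1, rfl⟩ := ih h1
    obtain ⟨r, r1, r2⟩ := c.lift h2
    exact ⟨r, ⟨s, s1, r1⟩, r2⟩

theorem sec1 : Sec M ξ p θ 1 := fun _ _ ⟨_, a1, a2⟩ ⟨_, b1, b2⟩ e => c.uniq (c.ea a1 a2) (c.ea b1 b2) e

theorem full1 : Full M ξ p θ 1 := fun _ _ ⟨_, a1, a2⟩ ⟨_, b1, b2⟩ e => c.tri' (c.ea a1 a2) (c.ea b1 b2) e

theorem sec_succ {k : ℕ} (hS : Sec M ξ p θ k) (hF : Full M ξ p θ k)
    (h : ∀ g, DL M ξ (k + 1) g → (k = 1 ∧ g ∈ M) ∨ DL M ξ k g ∨ Conn M ξ k g) : Sec M ξ p θ (k + 1) := by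
  intro r r' hr hr' e
  rcases h _ (c.Lv_DL hr) with ⟨rfl, h'⟩ | h | h
  · have k : ∀ r, Lv M ξ θ 2 r → p r ∈ M → Eqv M θ 1 r := fun r ⟨u, ⟨_, a1, a2⟩, a3⟩ m =>
      c.uniq (c.asymm (c.ea a1 a2)) a3 (by simpa using m)
    exact c.etrans (c.esymm (k r hr h')) (k r' hr' (by simpa using mul_mem h' e))
  · obtain ⟨s, s1, s2⟩ := c.DL_Lv h
    have k : ∀ r, Lv M ξ θ (k + 1) r → (p s)⁻¹ * p r ∈ M → Eqv M θ s r := fun r ⟨u, a1, a2⟩ m =>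
      c.uniq (hF _ _ a1 s1 (by simpa [mul_assoc] using (c.pa a2).right (inv_mem m))) a2 m
    exact c.etrans (c.esymm (k r hr (by simpa [s2] using one_mem M))) (k r' hr' (s2 ▸ e))
  obtain ⟨u, u1, u2⟩ := hr
  obtain ⟨v, v1, v2⟩ := hr'
  have k : ∀ b, Relation.ReflTransGen (Lk M ξ k (p r)) (p u) b → ∀ v, Lv M ξ θ k v → p v = b → Adj M ξ θ v r := by
    intro b hb
    induction hb with
    | refl => exact fun v v1 v2 => c.ea (hS _ _ v1 u1 (by simpa [v2] using one_mem M)) u2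
    | tail _ hb ih =>
      rintro v v1 rfl
      obtain ⟨w, w1, rfl⟩ := c.DL_Lv hb.1.1
      rcases hb.2.2 with h | h
      · exact c.tri' (hF _ _ w1 v1 h) (ih w w1 rfl) hb.2.1.2
      · exact c.ea (c.esymm (hS _ _ w1 v1 h)) (ih w w1 rfl)
  exact c.uniq (k _ (h _ _ (c.Lv_DL u1) (c.pa u2) (c.Lv_DL v1)
    (by simpa [mul_assoc] using (c.pa v2).right (inv_mem e))) v v1 rfl) v2 e

theorem cn {k : ℕ} (hS : Sec M ξ p θ (k + 1)) {r r' : R} (hr : Lv M ξ θ (k + 1) r) (a : Adj M ξ θ r r')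
    (h : CN M ξ k (p r) (p r')) : Lv M ξ θ (k + 1) r' := by
  obtain ⟨u, u1, u2, u3⟩ := h
  obtain ⟨s, s1, rfl⟩ := c.DL_Lv u1
  obtain ⟨t, t1, t2⟩ := c.lift u2
  exact ⟨s, s1, c.tri' (c.asymm (c.ae t1 (hS _ _ ⟨s, s1, t1⟩ hr (by simpa [t2] using one_mem M)))) a u3⟩

theorem full_succ {k : ℕ} (hS : Sec M ξ p θ (k + 1))
    (h : ∀ g g', DL M ξ (k + 1) g → DL M ξ (k + 1) g' → DD M ξ (g⁻¹ * g') → CN M ξ k g g') :
    Full M ξ p θ (k + 1) := fun r r' hr hr' e => by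
  obtain ⟨t, t1, t2⟩ := c.lift e
  exact c.ae t1 (hS _ _ (c.cn hS hr t1 (t2 ▸ h _ _ (c.Lv_DL hr) (c.Lv_DL hr') e)) hr' (by simpa [t2] using one_mem M))

/-- the covering is trivial -/
theorem main (h1 : ∀ g, DL M ξ 2 g → g ∈ M ∨ DL M ξ 1 g ∨ Conn M ξ 1 g)
    (h2 : ∀ g g', DL M ξ 2 g → DL M ξ 2 g' → DD M ξ (g⁻¹ * g') → CN M ξ 1 g g')
    (h3 : ∀ g, DL M ξ 3 g → DL M ξ 2 g ∨ Conn M ξ 2 g)
    (h4 : ∀ g g', DL M ξ 3 g → DD M ξ (g⁻¹ * g') → CN M ξ 2 g g') (h5 : DL M ξ 2 ξ)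
    {r : R} (hr : r ∈ Subgroup.closure (θ '' insert ξ M)) (e : p r = 1) : r = 1 := by
  have s2 := c.sec_succ c.sec1 c.full1 fun g hg => (h1 g hg).imp_left fun h => ⟨rfl, h⟩
  have f2 := c.full_succ s2 h2
  have s3 := c.sec_succ s2 f2 fun g hg => Or.inr (h3 g hg)
  have a1 : Adj M ξ θ 1 (θ ξ) := ⟨1, one_mem _, 1, one_mem _, by simp [c.one]⟩
  have l2 : Lv M ξ θ 2 1 := ⟨θ ξ, ⟨1, c.erefl 1, a1⟩, c.asymm a1⟩
  have l3 : Lv M ξ θ 3 1 := by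
    obtain ⟨s, s1, s2⟩ := c.DL_Lv h5
    exact ⟨s, s1, f2 _ _ s1 l2 (by simpa [s2] using (DD_self (M := M)).inv c.sq)⟩
  have k : ∀ x, Lv M ξ θ 3 x → Lv M ξ θ 3 (x * r) := by
    clear e
    induction hr using Subgroup.closure_induction_right with
    | one => simpa using fun _ h => h
    | mul_right r _ y hy ih =>
      intro x hx
      obtain ⟨g, rfl | hg, rfl⟩ := hy
      · have a := a1.left (x * r)
        rw [mul_one] at a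
        rw [← mul_assoc]
        exact c.cn s3 (ih x hx) a (h4 _ _ (c.Lv_DL (ih x hx)) (c.pa a))
      · exact c.Lv_eqv (ih x hx) ⟨g, hg, (mul_assoc _ _ _).symm⟩
    | mul_inv_cancel r _ y hy ih =>
      intro x hx
      obtain ⟨g, rfl | hg, rfl⟩ := hy
      · have a := a1.left (x * r)
        rw [mul_one] at a
        rw [← mul_assoc, inv_eq_of_mul_eq_one_left c.xx]
        exact c.cn s3 (ih x hx) a (h4 _ _ (c.Lv_DL (ih x hx)) (c.pa a))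
      · exact c.Lv_eqv (ih x hx) ⟨g⁻¹, inv_mem hg, by rw [c.inv hg, mul_assoc]⟩
  obtain ⟨a, -, e1⟩ := s3 _ _ l3 (k 1 l3) (by simpa [e] using one_mem M)
  have := congrArg p e1
  simp only [one_mul, e, c.pr] at this e1
  rw [e1, ← this, c.one]

end LC

/-! ### Transport of the geometric conditions -/

theorem CN.tr {k : ℕ} {g h a b d : X} (c : CN M ξ k g h) (ha : a ∈ M) (hb : b ∈ M) (hd : d ∈ M) :
    CN M ξ k (a * g * b) (a * h * d) := by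
  obtain ⟨u, h1, h2, h3⟩ := c
  exact ⟨a * u, h1.left ha, by simpa [mul_assoc] using h2.right hb, by simpa [mul_assoc] using h3.right hd⟩

theorem Lk.tr {k : ℕ} {g x y a b : X} (c : Lk M ξ k g x y) (ha : a ∈ M) (hb : b ∈ M) :
    Lk M ξ k (a * g * b) (a * x) (a * y) :=
  ⟨⟨c.1.1.left ha, by simpa [mul_assoc] using c.1.2.right hb⟩,
    ⟨c.2.1.1.left ha, by simpa [mul_assoc] using c.2.1.2.right hb⟩, by simpa [mul_assoc] using c.2.2⟩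

theorem path_tr {k : ℕ} {g x y a b : X} (c : Relation.ReflTransGen (Lk M ξ k g) x y) (ha : a ∈ M) (hb : b ∈ M) :
    Relation.ReflTransGen (Lk M ξ k (a * g * b)) (a * x) (a * y) := by
  induction c with
  | refl => exact Relation.ReflTransGen.refl
  | tail _ h ih => exact ih.tail (h.tr ha hb)

theorem Conn.tr {k : ℕ} {g a b : X} (c : Conn M ξ k g) (ha : a ∈ M) (hb : b ∈ M) : Conn M ξ k (a * g * b) := by
  intro x y x1 x2 y1 y2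
  have := path_tr (c (a⁻¹ * x) (a⁻¹ * y) (x1.left (inv_mem ha)) (by simpa [mul_assoc] using x2.right (inv_mem hb))
    (y1.left (inv_mem ha)) (by simpa [mul_assoc] using y2.right (inv_mem hb))) ha hb
  simpa using this

theorem path_symm (h2 : ξ * ξ = 1) {k : ℕ} {g x y : X} (c : Relation.ReflTransGen (Lk M ξ k g) x y) :
    Relation.ReflTransGen (Lk M ξ k g) y x := by
  induction c with
  | refl => exact Relation.ReflTransGen.refl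
  | tail _ h ih => exact ih.head ⟨h.2.1, h.1, h.2.2.imp (DD.swap h2) fun e => by simpa using inv_mem e⟩

/-- the orbits of the stabilizer of two vertices on the neighbours of the second -/
def Orb (M : Subgroup X) (ξ g : X) (ks ds : List X) : Prop :=
  (∀ k ∈ ks, k ∈ M ∧ g * k * g⁻¹ ∈ M) ∧ (∀ d ∈ ds, DD M ξ d) ∧
    ∀ S : Subgroup X, (∀ k ∈ ks, k ∈ S) → ∀ d, DD M ξ d → ∃ s ∈ S, ∃ e ∈ ds, (s * e)⁻¹ * d ∈ M

theorem Orb.nbr {g : X} {ks ds : List X} (o : Orb M ξ g ks ds) {a b h : X} (ha : a ∈ M) (hb : b ∈ M)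
    (e : DD M ξ ((a * g * b)⁻¹ * h)) :
    ∃ a' ∈ M, ∃ b' ∈ M, ∃ d ∈ ds, ∃ m ∈ M, a * g * b = a' * g * b' ∧ h = a' * (g * d) * m := by
  obtain ⟨s, hs, d, hd, m⟩ := o.2.2 (M ⊓ M.comap (MulAut.conj g).toMonoidHom) o.1 _ (e.left hb)
  exact ⟨a * (g * s * g⁻¹), mul_mem ha hs.2, s⁻¹ * b, mul_mem (inv_mem hs.1) hb, d, hd, _, m, by group, by group⟩

theorem Orb.conn (h2 : ξ * ξ = 1) {g : X} {ks ds : List X} (o : Orb M ξ g ks ds) {k : ℕ} {d0 : X}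
    (h1 : ∀ s ∈ ks, Relation.ReflTransGen (Lk M ξ k g) (g * d0) (g * (s * d0)))
    (h3 : ∀ d ∈ ds, DL M ξ k (g * d) → Relation.ReflTransGen (Lk M ξ k g) (g * d0) (g * d)) : Conn M ξ k g := by
  have tr : ∀ s, s ∈ M → g * s * g⁻¹ ∈ M → ∀ x y, Relation.ReflTransGen (Lk M ξ k g) (g * x) (g * y) →
      Relation.ReflTransGen (Lk M ξ k g) (g * (s * x)) (g * (s * y)) := fun s s1 s2 x y h => by
    simpa [mul_assoc] using path_tr h s2 (inv_mem s1)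
  let S : Subgroup X :=
    { carrier := {s | (s ∈ M ∧ g * s * g⁻¹ ∈ M) ∧ Relation.ReflTransGen (Lk M ξ k g) (g * d0) (g * (s * d0))}
      one_mem' := ⟨⟨one_mem _, by simpa using one_mem M⟩, by simpa using Relation.ReflTransGen.refl⟩
      mul_mem' := fun {a b} ha hb => ⟨⟨mul_mem ha.1.1 hb.1.1, by simpa [mul_assoc] using mul_mem ha.1.2 hb.1.2⟩,
        ha.2.trans (by simpa [mul_assoc] using tr a ha.1.1 ha.1.2 _ _ hb.2)⟩
      inv_mem' := fun {a} ha => ⟨⟨inv_mem ha.1.1, by simpa [mul_assoc] using inv_mem ha.1.2⟩, path_symm h2 (by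
        simpa [mul_assoc] using tr a⁻¹ (inv_mem ha.1.1) (by simpa [mul_assoc] using inv_mem ha.1.2) _ _ ha.2)⟩ }
  have key : ∀ b, DL M ξ k b → DD M ξ (b⁻¹ * g) → Relation.ReflTransGen (Lk M ξ k g) (g * d0) b := fun b b1 b2 => by
    obtain ⟨s, hs, d, hd, m⟩ := o.2.2 S (fun s hs => ⟨o.1 s hs, h1 s hs⟩) _ (b2.swap h2)
    have l : DL M ξ k (g * (s * d)) := by simpa [mul_assoc] using b1.right (inv_mem m)
    refine (hs.2.trans (tr s hs.1.1 hs.1.2 _ _ (h3 d hd ?_))).tail ⟨⟨l, ?_⟩, ⟨b1, b2⟩, Or.inr ?_⟩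
    · simpa [mul_assoc] using l.left (inv_mem hs.1.2)
    · simpa [mul_assoc] using ((o.2.1 d hd).left hs.1.1).inv h2
    · simpa [mul_assoc] using m
  exact fun a b a1 a2 b1 b2 => (path_symm h2 (key a a1 a2)).trans (key b b1 b2)

end CA.Co1

theorem CA.realizeEqns_Co1_Cov : True := by
  have := @CA.Co1.Orb.eq_1.{0}
  have := @CA.Co1.Orb.eq_def.{0}
  have := @CA.Co1.Orb.congr_simp.{0}
  have := @CA.Co1.Conn.eq_1.{0}
  have := @CA.Co1.Conn.eq_def.{0}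
  have := @CA.Co1.Conn.congr_simp.{0}
  have := @CA.Co1.Eqv.eq_1.{0,0}
  have := @CA.Co1.Eqv.eq_def.{0,0}
  have := @CA.Co1.Eqv.congr_simp.{0,0}
  have := @CA.Co1.Lk.eq_1.{0}
  have := @CA.Co1.Lk.eq_def.{0}
  have := @CA.Co1.Lk.congr_simp.{0}
  have := @CA.Co1.Tri.eq_1.{0}
  have := @CA.Co1.Tri.eq_def.{0}
  have := @CA.Co1.Tri.congr_simp.{0}
  have := @CA.Co1.DL.eq_1.{0}
  have := @CA.Co1.DL.eq_2.{0}
  have := @CA.Co1.DL.eq_def.{0}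
  have := @CA.Co1.DL.congr_simp.{0}
  have := @CA.Co1.CN.eq_1.{0}
  have := @CA.Co1.CN.eq_def.{0}
  have := @CA.Co1.CN.congr_simp.{0}
  have := @CA.Co1.Sec.eq_1.{0,0}
  have := @CA.Co1.Sec.eq_def.{0,0}
  have := @CA.Co1.Sec.congr_simp.{0,0}
  have := @CA.Co1.Lv.eq_1.{0,0}
  have := @CA.Co1.Lv.eq_2.{0,0}
  have := @CA.Co1.Lv.eq_def.{0,0}
  have := @CA.Co1.Lv.congr_simp.{0,0}
  have := @CA.Co1.DD.eq_1.{0}
  have := @CA.Co1.DD.eq_def.{0}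
  have := @CA.Co1.DD.congr_simp.{0}
  have := @CA.Co1.Adj.eq_1.{0,0}
  have := @CA.Co1.Adj.eq_def.{0,0}
  have := @CA.Co1.Adj.congr_simp.{0,0}
  have := @CA.Co1.Full.eq_1.{0,0}
  have := @CA.Co1.Full.eq_def.{0,0}
  have := @CA.Co1.Full.congr_simp.{0,0}
  trivial
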