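/-
Extension of the isomorphism of centralizers to the monomial group and to the whole group.
-/
import Cfsg.Agent.Co1.Dat
import Cfsg.Agent.PM.Ch

set_option autoImplicit false
set_option maxRecDepth 100000

namespace CA.Co1

open Cfsg Equiv CA.M24 CA.Typ CA.Fi Subgroup
open scoped Pointwise symmDiff

noncomputable section

universe u

variable {G : Type u} [Group G] {Θ : Spor.Co1 → G} {Q : Subgroup G} {z s : G}

local notation "Λ" => leechLattice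
local notation "ee" => e8 none

abbrev PP : Subgroup Spor.Co1 := normalizer ((closure ({zb, sb} : Set Spor.Co1) : Subgroup Spor.Co1) : Set Spor.Co1)

def Rk (Θ : Spor.Co1 → G) (n : G) (π : Perm Pt) : Prop :=
  ∀ c ∈ Cs, n * Θ (mk1 (eps c)) * n⁻¹ = Θ (mk1 (eps (π • c)))

structure Kap (Θ : Spor.Co1 → G) (κ : Perm Pt → G) : Prop where
  mul : ∀ π ∈ M24, ∀ ρ ∈ M24, κ (π * ρ) = κ π * κ ρ
  rel : ∀ π ∈ M24, Rk Θ (κ π) π

theorem Kap.one {κ : Perm Pt → G} (k : Kap Θ κ) : κ 1 = 1 := by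
  simpa using k.mul 1 (one_mem _) 1 (one_mem _)

theorem Kap.inv {κ : Perm Pt → G} (k : Kap Θ κ) {π : Perm Pt} (h : π ∈ M24) : κ π⁻¹ = (κ π)⁻¹ :=
  eq_inv_of_mul_eq_one_left (by rw [← k.mul _ (inv_mem h) _ h, inv_mul_cancel, k.one])

def Jn (Θ : Spor.Co1 → G) (κ : Perm Pt → G) (a b : ℕ) : Prop :=
  ∃ c ∈ Cs, ∃ π ∈ St OO, mask c = a ∧ code π = b ∧ Θ (mk1 (eps c * pC π)) = κ π

def zf (m : ℕ) : Bool := bor (Nat.beq m 0) (Nat.beq m full)

theorem zf_iff {c : Finset Pt} : zf (mask c) = true ↔ c = ∅ ∨ c = ∅ᶜ := by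
  rw [zf, bor_eq_true, beq_iff, beq_iff, ← mask_empty, ← mask_univ, mask_inj.eq_iff, mask_inj.eq_iff, Finset.compl_empty]

theorem zf_sd {c d : Finset Pt} : zf (Nat.xor (mask c) (mask d)) = true ↔ c = d ∨ c = dᶜ := by
  rw [← mask_symmDiff, zf_iff]
  refine or_congr symmDiff_eq_bot ?_
  rw [Finset.compl_empty]
  exact symmDiff_eq_top c d |>.trans ⟨fun h => h.eq_compl, fun h => h ▸ isCompl_compl.symm⟩

theorem zf_mv {g : ℕ} (h : chk g = true) {c : Finset Pt} (e : perm g • c = c ∨ perm g • c = cᶜ) :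
    zf (Nat.xor (mapp g (mask c)) (mask c)) = true := by
  rwa [← zf_sd, ← mapp_code, code_perm_chk h] at e

def mev (gs ds w : List ℕ) : ℕ :=
  List.rec (motive := fun _ => ℕ) 0 (fun i _ ih => force ih fun a => Nat.xor (getL ds 0 i) (mapp (getL gs pone i) a)) w

theorem pC_P {π : Perm Pt} (hπ : π ∈ M24) (h : (π • OO = OO ∧ π • O1 = O1) ∨ (π • OO = O1 ∧ π • O1 = OO)) :
    mk1 (pC π) ∈ PP := by
  refine mem_P ?_ ?_
  · rw [zb, ← map_inv, ← map_mul, ← map_mul, pC_conj_eps hπ OO_Cs]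
    rcases h with h | h <;> rw [h.1]
    exacts [subset_closure (Or.inl rfl), subset_closure (Or.inr rfl)]
  · rw [sb, ← map_inv, ← map_mul, ← map_mul, pC_conj_eps hπ (mem_octads.1 O1_mem).1]
    rcases h with h | h <;> rw [h.2]
    exacts [subset_closure (Or.inr rfl), subset_closure (Or.inl rfl)]

theorem xi_H : xiC ∈ H0 := wordC_xw ▸ mem_cent_iff.2 (comm_zW (l := xw) (by decide +kernel))

theorem mk1_H {g : Co0} (h : g ∈ H0) : mk1 g ∈ centralizer {zb} := mem_cent_iff.2 (comm_zb.2 (mem_cent_iff.1 h))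

theorem xi_P : mk1 xiC ∈ PP := by
  refine mem_P ?_ ?_
  · rw [(mem_cent_iff.1 (mk1_H xi_H)).eq, mul_inv_cancel_right]
    exact subset_closure (Or.inl rfl)
  · have := weq_spec (l := xw ++ [(pone, 1351424, false)]) (l' := [(pone, 1351424, false)] ++ xw) (by decide +kernel)
    rw [wordC_append, wordC_append, wordC_eps, wordC_xw] at this
    rw [sb, ← map_mul, ← this, map_mul, mul_inv_cancel_right]
    exact subset_closure (Or.inr rfl)

theorem smul_unmask {r a b : ℕ} (h : band (chk r) (band (blt' a 16777216) (Nat.beq (mapp r a) b)) = true) :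
    perm r • unmask a = unmask b := by
  simp only [band_eq_true, blt'_eq_true, beq_iff] at h
  rw [← h.2.2, ← unmask_mask (perm r • unmask a), ← mapp_code, code_perm_chk h.1, mask_unmask h.2.1]

theorem conj_aux {T R a : G} (h1 : T * R * T = a * T * R * (a * T)) (h2 : T * a * T⁻¹ = a) (h3 : a * a = 1) :
    R * a * R⁻¹ = a := by
  have h4 : R = a * R * a := mul_left_cancel (a := T) (mul_right_cancel (b := T) (by
    rw [h1, ← mul_assoc, ← mul_assoc T, ← mul_assoc T, mul_inv_eq_iff_eq_mul.1 h2]))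
  rw [mul_inv_eq_iff_eq_mul]
  conv_lhs => rw [h4]
  rw [mul_assoc, h3, mul_one]

def g1 : ℕ := nat_lit 56494884313060739981540808353104910
def g2 : ℕ := nat_lit 52344190148156177278774844009400046
def tt : ℕ := nat_lit 382284660610083079448803616790789770
def hh : ℕ := nat_lit 598025746684090237108588761719751781
def rr : ℕ := nat_lit 587391549570569181429951019932682337

theorem St_of {r : ℕ} (h : band (chk r) (band (blt' O0 16777216) (Nat.beq (mapp r O0) O0)) = true) : perm r ∈ St OO :=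
  ⟨perm_mem_M24 (band_eq_true.1 h).1, smul_unmask h⟩

theorem tt_M : perm tt ∈ M24 := perm_mem_M24 (by decide +kernel)
theorem tt_O : perm tt • OO = O1 ∧ perm tt • O1 = OO := ⟨smul_unmask (by decide +kernel), smul_unmask (by decide +kernel)⟩
theorem tt_P : mk1 (pC (perm tt)) ∈ PP := pC_P tt_M (Or.inr tt_O)
theorem tt_sq : perm tt * perm tt = 1 :=
  code_inj (by rw [← pmul_code, code_perm_chk (by decide +kernel), code_one]; decide +kernel)

theorem le_of_words {L : Subgroup (Perm Pt)} {gs hs : List ℕ} (ws : List (List ℕ)) (h : ∀ c ∈ gs, InH L c)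
    (e : ws.map (evalW gs) = hs) : gen hs ≤ L :=
  gen_le fun c hc => by
    obtain ⟨w, -, rfl⟩ := List.mem_map.1 (e ▸ hc)
    exact inH_evalW h w

theorem conj_octs {o : Finset Pt} (ho : o ∈ octads) : IsConj zb (mk1 (eps o)) := by
  obtain ⟨π, h, rfl⟩ := octad_transitive O0_mem ho
  exact isConj_iff.2 ⟨mk1 (pC π), by rw [zb, ← map_inv, ← map_mul, ← map_mul, pC_conj_eps h OO_Cs]⟩

theorem zb_sq : zb * zb = 1 := by rw [zb, ← map_mul, eps_mul_self OO_Cs, map_one]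

theorem eps_H0 {c : Finset Pt} (hc : c ∈ Cs) : eps c ∈ H0 := mem_cent_iff.2 (comm_zb.1 (mem_cent_iff.1 (eps_H hc)))

theorem pC_H0 {π : Perm Pt} (h : π ∈ St OO) : pC π ∈ H0 := by
  simpa [eps_empty] using mem_cent_iff.2 ((mono_comm_eps empty_mem_Cs OO_Cs h.1).2 h.2)

theorem hh_St : perm hh ∈ St OO := St_of (by decide +kernel)

theorem xi_tt : xiC * pC (perm tt) * xiC = eps (unmask 9471495) * pC (perm tt) := by
  have := weq_spec (l := xw ++ ([(tt, 0, false)] ++ xw)) (l' := [(tt, 9471495, false)]) (by decide +kernel)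
  rwa [wordC_append, wordC_append, wordC_xw, wordC_perm, wordC_mono, inv_eq_of_mul_eq_one_left tt_sq] at this

theorem xi_hh : xiC * pC (perm hh) * xiC ∈ Mon := by
  have := eqc_spec (l := xw ++ ([(hh, 0, false)] ++ xw)) (l' := []) (by decide +kernel)
  rw [wordC_append, wordC_append, wordC_xw, wordC_perm, pC_inv hh_St.1] at this
  simpa [wordC, inv_eq_of_mul_eq_one_left xi_sq, mul_assoc] using this

theorem sext_fix {c : Finset Pt} (hc : c ∈ Cs) {π : Perm Pt} (hπ : π ∈ M24) (h : xiC * (eps c * pC π) * xiC ∈ Mon) :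
    π • (famC 6).dec S0 = (famC 6).dec S0 := by
  have hx := act_mem xiC (e8_mem none)
  obtain ⟨y, hy, e⟩ := cong_of_mon (g := xiC) (h := eps c * pC π * xiC)
    (by rwa [inv_eq_of_mul_eq_one_left xi_sq, ← mul_assoc])
  rw [act_mul, act_mul, act_pC hπ hx, act_eps hc (prm_mem hπ hx)] at e
  have h0 : ∀ i, act xiC ee i % 8 = 4 * ind (unmask 8388615) i := by
    rw [act_xiC (e8_mem _)]; decide +kernel
  have h1 : (π⁻¹ • unmask 8388615) ∆ unmask 8388615 ∈ Cs := by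
    rw [← smul_mem_Cs_iff hπ, smul_symmDiff', smul_inv_smul]
    convert filter_mem_Cs hy 2 using 1
    ext i
    have e1 := congrFun e i
    have e2 := h0 i
    have e3 := h0 (π⁻¹ i)
    rw [← ind_smul] at e3
    have e4 : prm π (act xiC ee) i = act xiC ee (π⁻¹ i) := by
      simpa using prm_apply π (act xiC ee) (π⁻¹ i)
    simp only [Pi.sub_apply, Pi.smul_apply, nsmul_eq_mul, Nat.cast_ofNat, sgn_apply, e4] at e1
    rw [Finset.mem_filter_univ, Finset.mem_symmDiff]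
    rcases ind_cases c i with ⟨-, a⟩ | ⟨-, a⟩ <;> rcases ind_cases (unmask 8388615) i with ⟨b1, b⟩ | ⟨b1, b⟩ <;>
      rcases ind_cases (π • unmask 8388615) i with ⟨d1, d⟩ | ⟨d1, d⟩ <;> rw [a] at e1 <;> rw [b] at e2 <;>
      rw [d] at e3 <;> simp only [b1, d1, not_true, not_false_iff, and_true, and_false, or_false, false_or, or_self,
        true_iff, false_iff] <;> omega
  obtain ⟨j, hj, e1⟩ := exists_cw h1
  have c1 := allP_zero (show allP (fun j => force (Nat.xor (cw j) 8388615) fun m =>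
    bimp (Nat.beq (pcnt m) 4) (memL m (unp 6 S0))) 12 0 = true by decide +kernel) j hj
  have m0 : mask (unmask 8388615) = 8388615 := mask_unmask (by decide)
  have c2 : Nat.xor (cw j) 8388615 = mask (π⁻¹ • unmask 8388615) := by
    have := mask_symmDiff ((π⁻¹ • unmask 8388615) ∆ unmask 8388615) (unmask 8388615)
    rw [symmDiff_symmDiff_cancel_right, m0, ← e1] at this
    exact this.symm
  rw [force_eq, c2, bimp_eq_true, pcnt_mask, Finset.card_smul_finset, memL_eq_true, ← S0_TS.2,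
    ← mem_iff_unp (by decide +kernel)] at c1
  exact sextet_eq_S0 (smul_mem_sextets hπ S0_mem) (by
    rw [show ({pt 23, pt 0, pt 1, pt 2} : Finset Pt) = unmask 8388615 by decide +kernel, ← Finset.inv_smul_mem_iff]
    exact c1 (by decide +kernel))

theorem H0_ind (S : Subgroup H0) (h1 : ∀ h : H0, (h : Co0) ∈ Mon → h ∈ S) (h2 : ⟨xiC, xi_H⟩ ∈ S) (h : H0) : h ∈ S := by
  obtain ⟨hw, hu, -⟩ := basChk_spec basO
  have he : ∀ i, i ∉ OO → e8 none i = 0 := fun i hi => e8_ne (by rintro rfl; exact hi none_mem_OO)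
  have hpt : (crdO.pt (e8 none) : ℕ) = 254 :=
    (congrArg (crdV usO) (vN_e8N none).symm).trans ((crdV_vecF _ _).trans (by decide +kernel))
  have hbf := bfsChk_spec (show bfsChk (DDO.map (·.2)) [254, 0, 1] LLO 8 = true by decide +kernel) crdO.rho S (by
    intro T hT
    obtain ⟨d, hd, rfl⟩ := List.mem_map.1 hT
    have h3 := allL_eq_true.1 (show allL (fun d => band (wordOk d.1) (band (weq (d.1 ++ zW) (zW ++ d.1))
      (band (matChk d.1 wsO usO 8 d.2) (bor (weq d.1 xw) (eqc [] d.1))))) DDO = true by decide +kernel) d hd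
    rw [band_eq_true, band_eq_true, band_eq_true, bor_eq_true] at h3
    refine ⟨⟨_, mem_cent_iff.2 (comm_zW h3.2.1)⟩, ?_, fun a => matChk_spec hw hu h3.1 h3.2.2.1 a⟩
    rcases h3.2.2.2 with e | e
    · convert h2 using 2
      exact (weq_spec e).trans wordC_xw
    · exact h1 _ (by simpa [wordC] using eqc_spec e))
  have hr := short_roots crdO he (SP := [(0, nat_lit 3150858910311745638317572730080710985337652928985868304512),
    (1, nat_lit 3199898767619454256009622083063731242116508649152783221378)]) (by decide +kernel)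
  refine crdO.eq_top he S h1 (fun a ha => ?_) h
  obtain ⟨s, hs, e⟩ := hbf a
  exact ⟨s, hs, Fin.ext (by rw [e, hroots_of crdO he hr _ ((crdO.orbE_rho s).2 ha) _ e.symm, hpt]; rfl)⟩

end

end CA.Co1

namespace CA.Typ.Am

open Cfsg Equiv CA.M24 CA.Co1 CA.Fi Subgroup
open scoped Pointwise symmDiff

universe u

variable {G : Type u} [Group G] {Θ : Spor.Co1 → G} {Q : Subgroup G} {z s : G}
variable (M : Am Θ Qb zb sb Q z s)
include M

theorem a_inv {c : Finset Pt} (hc : c ∈ Cs) : (Θ (mk1 (eps c)))⁻¹ = Θ (mk1 (eps c)) :=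
  inv_eq_of_mul_eq_one_left (M.A_sq (M.a_mem hc))

theorem th_mono {c : Finset Pt} (hc : c ∈ Cs) {π : Perm Pt} (hπ : π ∈ St OO) :
    Θ (mk1 (eps c * pC π)) = Θ (mk1 (eps c)) * Θ (mk1 (pC π)) := by
  have := mon_H empty_mem_Cs hπ
  rw [eps_empty, one_mul] at this
  rw [map_mul, M.H.mul _ (eps_H hc) _ this]

theorem Rk_St {π : Perm Pt} (hπ : π ∈ St OO) : Rk Θ (Θ (mk1 (pC π))) π := fun d hd => by
  have := M.mon_rel empty_mem_Cs hπ hd
  rwa [eps_empty, one_mul] at this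

theorem dif [Finite G] {n n' : G} {π : Perm Pt} (hπ : π ∈ M24) (h : Rk Θ n π) (h' : Rk Θ n' π) :
    ∃ c ∈ Cs, n = Θ (mk1 (eps c)) * n' := by
  obtain ⟨c, hc, e⟩ := M.mem_A.1 (M.cent_A (n := n * n'⁻¹) fun x hx => by
    obtain ⟨d, hd, rfl⟩ := M.mem_A.1 hx
    have h1 := h _ (smul_mem_Cs (inv_mem hπ) hd)
    have h2 := h' _ (smul_mem_Cs (inv_mem hπ) hd)
    rw [smul_inv_smul] at h1 h2
    rw [Commute, SemiconjBy]
    conv_lhs => rw [← h2]
    conv_rhs => rw [← h1]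
    group)
  exact ⟨c, hc, by rw [e]; group⟩

theorem exists_kap [Finite G] : ∃ κ, Kap Θ κ := by
  classical
  obtain ⟨f, f1, f2, f3⟩ := M.exists_f
  obtain ⟨K, hK⟩ := M.split
  let e := MulEquiv.ofBijective (f.comp K.subtype) ⟨(injective_iff_map_eq_one _).2 fun a h =>
    Subtype.ext (disjoint_def.1 hK.disjoint (by rw [← f3]; exact h) a.2), fun π => by
      obtain ⟨n, rfl⟩ := f1 π
      obtain ⟨⟨a, k⟩, rfl⟩ := hK.2 n
      refine ⟨k, ?_⟩
      have : (a : normalizer (M.A : Set G)) ∈ f.ker := by rw [f3]; exact a.2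
      show f k = f (a * k)
      rw [map_mul, this, one_mul]⟩
  refine ⟨fun π => if h : π ∈ M24 then ((e.symm ⟨π, h⟩ : K) : normalizer (M.A : Set G)) else 1,
    fun π hπ ρ hρ => ?_, fun π hπ c hc => ?_⟩
  · rw [dif_pos hπ, dif_pos hρ, dif_pos (mul_mem hπ hρ)]
    exact congrArg (fun x : K => ((x : normalizer (M.A : Set G)) : G)) (map_mul e.symm ⟨π, hπ⟩ ⟨ρ, hρ⟩)
  · rw [dif_pos hπ, f2 _ c hc, show f (e.symm ⟨π, hπ⟩ : K) = ⟨π, hπ⟩ from e.apply_symm_apply ⟨π, hπ⟩]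

theorem adj {κ : Perm Pt → G} (k : Kap Θ κ) {e : Finset Pt} (he : e ∈ Cs) :
    ∃ κ', Kap Θ κ' ∧ ∀ π ∈ M24, κ' π = Θ (mk1 (eps (e ∆ (π • e)))) * κ π := by
  refine ⟨fun π => Θ (mk1 (eps e)) * κ π * (Θ (mk1 (eps e)))⁻¹, ⟨fun π hπ ρ hρ => by rw [k.mul _ hπ _ hρ]; group,
    fun π hπ c hc => ?_⟩, fun π hπ => ?_⟩
  · have h1 := (M.A_comm (M.a_mem he) (M.a_mem hc)).eq
    have h2 := (M.A_comm (M.a_mem he) (M.a_mem (smul_mem_Cs hπ hc))).eq
    calc _ = Θ (mk1 (eps e)) * (κ π * ((Θ (mk1 (eps e)))⁻¹ * (Θ (mk1 (eps c)) * Θ (mk1 (eps e)))) * (κ π)⁻¹) *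
          (Θ (mk1 (eps e)))⁻¹ := by group
      _ = _ := by rw [← h1, inv_mul_cancel_left, k.rel π hπ c hc, h2, mul_inv_cancel_right]
  · rw [← M.a_mul he (smul_mem_Cs hπ he), ← k.rel π hπ e he, M.a_inv he]; group

variable {κ : Perm Pt → G}

theorem jn_one (k : Kap Θ κ) : Jn Θ κ 0 pone :=
  ⟨∅, empty_mem_Cs, 1, one_mem _, mask_empty, code_one, by rw [pC_one, mul_one, M.a_empty, k.one]⟩

theorem jn_mul (k : Kap Θ κ) {a b a' b' : ℕ} (h : Jn Θ κ a b) (h' : Jn Θ κ a' b') :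
    Jn Θ κ (Nat.xor a (mapp b a')) (pmul b b') := by
  obtain ⟨c, hc, π, hπ, rfl, rfl, e⟩ := h
  obtain ⟨d, hd, ρ, hρ, rfl, rfl, e'⟩ := h'
  refine ⟨_, symmDiff_mem_Cs hc (smul_mem_Cs hπ.1 hd), _, mul_mem hπ hρ, by rw [mask_symmDiff, mapp_code],
    (pmul_code _ _).symm, ?_⟩
  rw [← mono_mul hc hd hπ.1 hρ.1, map_mul, M.H.mul _ (mon_H hc hπ) _ (mon_H hd hρ), e, e', k.mul _ hπ.1 _ hρ.1]

theorem jn_word (k : Kap Θ κ) {a b a' b' : ℕ} (h : Jn Θ κ a b) (h' : Jn Θ κ a' b') (w : List ℕ) :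
    Jn Θ κ (mev [b, b'] [a, a'] w) (evalW [b, b'] w) := by
  induction w with
  | nil => exact M.jn_one k
  | cons i w ih =>
    change Jn Θ κ (force (mev [b, b'] [a, a'] w) fun x => Nat.xor (getL [a, a'] 0 i) (mapp (getL [b, b'] pone i) x))
      (force (evalW [b, b'] w) fun x => force (getL [b, b'] pone i) fun y => pmul y x)
    rw [force_eq, force_eq, force_eq]
    refine M.jn_mul k ?_ ih
    match i with
    | 0 => exact h
    | 1 => exact h'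
    | _ + 2 => exact M.jn_one k

theorem jn_triv (k : Kap Θ κ) {a : ℕ} (h : Jn Θ κ a pone) : zf a = true := by
  obtain ⟨c, hc, π, hπ, rfl, e, e'⟩ := h
  obtain rfl := code_inj (e.trans code_one.symm)
  rw [pC_one, mul_one, k.one, ← M.a_empty] at e'
  exact zf_iff.2 ((M.a_inj hc empty_mem_Cs).1 e')

theorem jn_rel (k : Kap Θ κ) {a b a' b' : ℕ} (h : Jn Θ κ a b) (h' : Jn Θ κ a' b') {w : List ℕ}
    (e : evalW [b, b'] w = pone) : zf (mev [b, b'] [a, a'] w) = true :=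
  M.jn_triv k (e ▸ M.jn_word k h h' w)

theorem jn_zero {a b : ℕ} (h : Jn Θ κ a b) (e : zf a = true) : Jn Θ κ 0 b := by
  obtain ⟨c, hc, π, hπ, rfl, rfl, e'⟩ := h
  refine ⟨∅, empty_mem_Cs, π, hπ, mask_empty, rfl, ?_⟩
  rw [← e', map_mul, map_mul, (mk1_eps_inj hc empty_mem_Cs).2 (zf_iff.1 e)]

theorem jn_adj (k : Kap Θ κ) {e : ℕ} (he : isC e = true) :
    ∃ κ', Kap Θ κ' ∧ ∀ a b, Jn Θ κ a b → Jn Θ κ' (Nat.xor (Nat.xor e (mapp b e)) a) b := by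
  obtain ⟨h1, h2⟩ := unmask_mem_Cs he
  obtain ⟨κ', k', h⟩ := M.adj k h1
  refine ⟨κ', k', ?_⟩
  rintro _ _ ⟨c, hc, π, hπ, rfl, rfl, e'⟩
  have h3 := symmDiff_mem_Cs h1 (smul_mem_Cs hπ.1 h1)
  refine ⟨_, symmDiff_mem_Cs h3 hc, π, hπ, by rw [mask_symmDiff, mask_symmDiff, ← mapp_code, h2], rfl, ?_⟩
  rw [h π hπ.1, ← e', M.th_mono hc hπ, M.th_mono (symmDiff_mem_Cs h3 hc) hπ, ← M.a_mul h3 hc, mul_assoc]

theorem jn_ex [Finite G] (k : Kap Θ κ) {r : ℕ} (h : perm r ∈ St OO) (e : code (perm r) = r) :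
    ∃ j < 2 ^ 12, Jn Θ κ (cw j) r := by
  obtain ⟨c, hc, e'⟩ := M.dif h.1 (k.rel _ h.1) (M.Rk_St h)
  obtain ⟨j, hj, e1⟩ := exists_cw hc
  exact ⟨j, hj, c, hc, _, h, e1.symm, e, by rw [e', M.th_mono hc h]⟩

theorem exists_kap1 [Finite G] : ∃ κ, Kap Θ κ ∧ ∀ π ∈ St OO, κ π = Θ (mk1 (pC π)) := by
  obtain ⟨κ, k⟩ := M.exists_kap
  obtain ⟨j, hj, h1⟩ := M.jn_ex k (r := g1) (St_of (by decide +kernel)) (code_perm_chk (by decide +kernel))
  have c1 := allP_zero (show allP (fun j => force (cw j) fun d => force (mev [g1, g1] [d, 0] [1, 0, 1, 0, 1, 0]) fun e =>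
    band (isC e) (Nat.beq (Nat.xor (Nat.xor e (mapp g1 e)) d) (mev [g1, g1] [d, d] [0, 0, 0, 0, 0, 0, 0]))) 12 0 = true
    by decide +kernel) j hj
  rw [force_eq, force_eq, band_eq_true, beq_iff] at c1
  obtain ⟨κ1, k1, h2⟩ := M.jn_adj k c1.1
  have h3 := M.jn_zero (h2 _ _ h1) (c1.2 ▸ M.jn_rel k h1 h1 (by decide +kernel))
  obtain ⟨j, hj, h4⟩ := M.jn_ex k1 (r := g2) (St_of (by decide +kernel)) (code_perm_chk (by decide +kernel))
  have c2 := allP_zero (show allP (fun j => force (cw j) fun d => bimp (zf (mev [g1, g2] [0, d] [1, 1]))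
    (bimp (zf (mev [g1, g2] [0, d] [0, 1, 0, 1, 0, 1, 0, 1, 0, 1])) (bimp (zf (mev [g1, g2] [0, d]
      [0, 0, 0, 1, 0, 1, 0, 0, 0, 1, 0, 1, 0, 0, 0, 1, 0, 1, 0, 0, 0, 1, 0, 1, 0, 0, 0, 1, 0, 1, 0, 0, 0, 1, 0, 1]))
      (anyL (fun e => band (isC e) (band (zf (Nat.xor (Nat.xor e (mapp g1 e)) 0))
        (zf (Nat.xor (Nat.xor e (mapp g2 e)) d)))) [0, 832080])))) 12 0 = true by decide +kernel) j hj
  simp only [force_eq, bimp_eq_true, anyL_eq_true, band_eq_true] at c2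
  obtain ⟨e, -, e1, e2, e3⟩ := c2 (M.jn_rel k1 h3 h4 (by decide +kernel)) (M.jn_rel k1 h3 h4 (by decide +kernel))
    (M.jn_rel k1 h3 h4 (by decide +kernel))
  obtain ⟨κ2, k2, h5⟩ := M.jn_adj k1 e1
  have pH : ∀ π ∈ St OO, mk1 (pC π) ∈ centralizer {zb} := fun π hπ => by
    simpa [eps_empty] using mon_H empty_mem_Cs hπ
  let L : Subgroup (Perm Pt) :=
    { carrier := {π | π ∈ St OO ∧ κ2 π = Θ (mk1 (pC π))}
      one_mem' := ⟨one_mem _, by rw [k2.one, pC_one, map_one, M.H.one]⟩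
      mul_mem' := fun {a b} ha hb => ⟨mul_mem ha.1 hb.1, by
        rw [k2.mul _ ha.1.1 _ hb.1.1, pC_mul ha.1.1 hb.1.1, map_mul, M.H.mul _ (pH _ ha.1) _ (pH _ hb.1), ha.2, hb.2]⟩
      inv_mem' := fun {a} ha => ⟨inv_mem ha.1, by
        rw [k2.inv ha.1.1, pC_inv ha.1.1, map_inv, M.H.inv (pH _ ha.1), ha.2]⟩ }
  have hL : ∀ b, Jn Θ κ2 0 b → InH L b := by
    rintro _ ⟨c, hc, π, hπ, r, rfl, e⟩
    obtain rfl := mask_inj (r.trans mask_empty.symm)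
    exact ⟨π, ⟨hπ, by rw [← e, eps_empty, one_mul]⟩, rfl⟩
  refine ⟨κ2, k2, fun π hπ => (le_of_words (L := L) (gs := [g1, g2])
    [[0, 1, 0, 0, 1, 0, 1, 0, 1, 0, 0, 0, 0, 0, 1, 0, 1, 0, 0, 1, 0, 1, 0, 1, 0, 0, 0],
      [0, 1, 0, 1, 0, 0, 0, 0, 0, 1, 0, 1, 0, 0, 1, 0, 0, 1, 0, 1, 0, 1, 0, 0]] ?_ (by decide +kernel) (StO_le hπ)).2⟩
  simp only [List.forall_mem_cons, List.not_mem_nil, false_imp_iff, implies_true, and_true]
  exact ⟨hL _ (M.jn_zero (h5 _ _ h3) e2), hL _ (M.jn_zero (h5 _ _ h4) e3)⟩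

theorem exists_kap2 [Finite G] :
    ∃ κ, Kap Θ κ ∧ (∀ π ∈ St OO, κ π = Θ (mk1 (pC π))) ∧ κ (perm tt) = Θ (mk1 (pC (perm tt))) := by
  obtain ⟨κ, k, h⟩ := M.exists_kap1
  obtain ⟨c, hc, e⟩ := M.dif tt_M (n := Θ (mk1 (pC (perm tt)))) (fun d hd => by
    rw [← M.P.conj tt_P (eps_P hd), ← map_inv, ← map_mul, ← map_mul, pC_conj_eps tt_M hd]) (k.rel _ tt_M)
  have r1 : perm rr ∈ St OO := St_of (by decide +kernel)
  have r2 : perm rr • O1 = O1 := smul_unmask (by decide +kernel)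
  have r3 : perm tt * perm rr * perm tt ∈ St OO ∧ (perm tt * perm rr * perm tt) • O1 = O1 :=
    ⟨⟨mul_mem (mul_mem tt_M r1.1) tt_M, show _ • OO = OO by rw [mul_smul, mul_smul, tt_O.1, r2, tt_O.2]⟩,
      by rw [mul_smul, mul_smul, tt_O.2, show perm rr • OO = OO from r1.2, tt_O.1]⟩
  have t2 : Θ (mk1 (pC (perm tt))) * Θ (mk1 (pC (perm tt))) = 1 := by
    rw [← M.P.mul _ tt_P _ tt_P, ← map_mul, ← pC_mul tt_M tt_M, tt_sq, pC_one, map_one, M.P.one]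
  have k2 : κ (perm tt) * κ (perm tt) = 1 := by rw [← k.mul _ tt_M _ tt_M, tt_sq, k.one]
  have a1 : perm tt • c = c ∨ perm tt • c = cᶜ := by
    rw [← M.a_inj (smul_mem_Cs tt_M hc) hc, ← k.rel _ tt_M c hc, ← M.a_inv hc, inv_eq_of_mul_eq_one_left k2]
    rw [e, mul_assoc, ← mul_assoc (κ _)] at t2
    rw [M.a_inv hc, eq_inv_of_mul_eq_one_right t2, M.a_inv hc]
  have a2 : perm rr • c = c ∨ perm rr • c = cᶜ := by
    have p1 := pC_P r1.1 (Or.inl ⟨r1.2, r2⟩)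
    have b1 := h _ r3.1
    rw [k.mul _ (mul_mem tt_M r1.1) _ tt_M, k.mul _ tt_M _ r1.1, pC_mul (mul_mem tt_M r1.1) tt_M, pC_mul tt_M r1.1,
      map_mul, map_mul, M.P.mul _ (mul_mem tt_P p1) _ tt_P, M.P.mul _ tt_P _ p1, ← h _ r1, e] at b1
    have b2 := k.rel _ tt_M c hc
    rw [(M.a_inj (smul_mem_Cs tt_M hc) hc).2 a1] at b2
    rw [← M.a_inj (smul_mem_Cs r1.1 hc) hc, ← k.rel _ r1.1 c hc]
    exact conj_aux b1 b2 (M.A_sq (M.a_mem hc))
  obtain ⟨j, hj, e1⟩ := exists_cw hc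
  have c1 := allP_zero (show allP (fun j => force (cw j) fun d => bimp (zf (Nat.xor (mapp tt d) d))
    (bimp (zf (Nat.xor (mapp rr d) d)) (bor (zf d) (zf (Nat.xor d 9887535))))) 12 0 = true
    by decide +kernel) j hj
  have c2 : mask (OO ∆ (perm tt • OO)) = 9887535 := by rw [tt_O.1]; decide +kernel
  rw [force_eq, e1, bimp_eq_true, bimp_eq_true, bor_eq_true, ← c2] at c1
  rcases (c1 (zf_mv (by decide +kernel) a1) (zf_mv (by decide +kernel) a2)).imp zf_iff.1 zf_sd.1 with r | r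
  · exact ⟨κ, k, h, by rw [e, (M.a_inj hc empty_mem_Cs).2 r, M.a_empty, one_mul]⟩
  · obtain ⟨κ', k', h'⟩ := M.adj k OO_Cs
    refine ⟨κ', k', fun π hπ => ?_, ?_⟩
    · rw [h' π hπ.1, show π • OO = OO from hπ.2, symmDiff_self, show (⊥ : Finset Pt) = ∅ from rfl, M.a_empty, one_mul,
        h π hπ]
    · rw [h' _ tt_M, e, (M.a_inj hc (symmDiff_mem_Cs OO_Cs (smul_mem_Cs tt_M OO_Cs))).2 r]

theorem exists_psi [Finite G] : ∃ ψ : Co0 → G, (∀ a ∈ Mon, ∀ b ∈ Mon, ψ (a * b) = ψ a * ψ b) ∧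
    (∀ a ∈ H0, ψ a = Θ (mk1 a)) ∧ ψ (pC (perm tt)) = Θ (mk1 (pC (perm tt))) := by
  classical
  obtain ⟨κ, k, h1, h2⟩ := M.exists_kap2
  let ψ : Co0 → G := fun g => if h : g ∈ Mon then
    Θ (mk1 (eps (mem_Mon_iff.1 h).choose)) * κ (mem_Mon_iff.1 h).choose_spec.2.choose else Θ (mk1 g)
  have e : ∀ c ∈ Cs, ∀ π ∈ M24, ψ (eps c * pC π) = Θ (mk1 (eps c)) * κ π := fun c hc π hπ => by
    have h : eps c * pC π ∈ Mon := mem_Mon_iff.2 ⟨c, hc, π, hπ, rfl⟩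
    have h3 := (mem_Mon_iff.1 h).choose_spec
    have h4 := h3.2.choose_spec
    have h5 := mono_inj hπ h4.1 hc h3.1 h4.2
    simp only [ψ, dif_pos h]
    rw [← h5.2, ← h5.1]
  refine ⟨ψ, fun a ha b hb => ?_, fun a ha => ?_, ?_⟩
  · obtain ⟨c, hc, π, hπ, rfl⟩ := mem_Mon_iff.1 ha
    obtain ⟨d, hd, ρ, hρ, rfl⟩ := mem_Mon_iff.1 hb
    rw [mono_mul hc hd hπ hρ, e _ (symmDiff_mem_Cs hc (smul_mem_Cs hπ hd)) _ (mul_mem hπ hρ), e c hc π hπ, e d hd ρ hρ,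
      ← M.a_mul hc (smul_mem_Cs hπ hd), ← k.rel π hπ d hd, k.mul _ hπ _ hρ]
    group
  · by_cases h : a ∈ Mon
    · obtain ⟨c, hc, π, hπ, rfl⟩ := mem_Mon_iff.1 h
      have h3 : π ∈ St OO := ⟨hπ, (mono_comm_eps hc OO_Cs hπ).1 (mem_cent_iff.1 ha)⟩
      rw [e c hc π hπ, h1 π h3, M.th_mono hc h3]
    · exact dif_neg h
  · have := e _ empty_mem_Cs _ tt_M
    rwa [M.a_empty, eps_empty, one_mul, one_mul, h2] at this

theorem lc_of {ψ : Co0 → G} (h1 : ∀ a ∈ Mon, ∀ b ∈ Mon, ψ (a * b) = ψ a * ψ b) (h2 : ∀ a ∈ H0, ψ a = Θ (mk1 a))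
    (h3 : ψ (pC (perm tt)) = Θ (mk1 (pC (perm tt)))) :
    LC Mon H0 xiC (MonoidHom.snd G Co0) fun g => (ψ g, g) := by
  have mH : ∀ a ∈ H0, ∀ b ∈ H0, ψ (a * b) = ψ a * ψ b := fun a ha b hb => by
    rw [h2 _ (mul_mem ha hb), h2 a ha, h2 b hb, map_mul, M.H.mul _ (mk1_H ha) _ (mk1_H hb)]
  refine ⟨xi_sq, xi_H, fun _ => rfl, fun a ha b hb => Prod.ext (h1 a ha b hb) rfl,
    fun a ha b hb => Prod.ext (mH a ha b hb) rfl, fun a ha hx => Prod.ext ?_ rfl, geo_tri⟩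
  have one : ψ 1 = 1 := by simpa using h1 1 (one_mem _) 1 (one_mem _)
  have xx : ψ xiC * ψ xiC = 1 := by rw [← mH _ xi_H _ xi_H, xi_sq, one]
  have inv : ∀ a ∈ Mon, ψ a⁻¹ = (ψ a)⁻¹ := fun a ha =>
    eq_inv_of_mul_eq_one_left (by rw [← h1 _ (inv_mem ha) _ ha, inv_mul_cancel, one])
  have x1 : ∀ a b, xiC * (a * b) * xiC = xiC * a * xiC * (xiC * b * xiC) := fun a b => by
    rw [mul_assoc (xiC * a) xiC, ← mul_assoc xiC (xiC * b), ← mul_assoc xiC xiC, xi_sq]; group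
  have x2 : ∀ a, xiC * a⁻¹ * xiC = (xiC * a * xiC)⁻¹ := fun a => by
    rw [mul_inv_rev, mul_inv_rev, inv_eq_of_mul_eq_one_left xi_sq, mul_assoc]
  let L : Subgroup Co0 :=
    { carrier := {a | (a ∈ Mon ∧ xiC * a * xiC ∈ Mon) ∧ ψ xiC * ψ a * ψ xiC = ψ (xiC * a * xiC)}
      one_mem' := ⟨⟨one_mem _, by rw [mul_one, xi_sq]; exact one_mem _⟩, by rw [one, mul_one, mul_one, xi_sq, xx, one]⟩
      mul_mem' := fun {a b} ha hb => ⟨⟨mul_mem ha.1.1 hb.1.1, x1 a b ▸ mul_mem ha.1.2 hb.1.2⟩, by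
        rw [x1, h1 _ ha.1.2 _ hb.1.2, ← ha.2, ← hb.2, h1 _ ha.1.1 _ hb.1.1, mul_assoc (ψ xiC * ψ a) (ψ xiC),
          ← mul_assoc (ψ xiC) (ψ xiC * ψ b), ← mul_assoc (ψ xiC) (ψ xiC), xx]
        group⟩
      inv_mem' := fun {a} ha => ⟨⟨inv_mem ha.1.1, x2 a ▸ inv_mem ha.1.2⟩, by
        rw [x2, inv _ ha.1.2, ← ha.2, inv _ ha.1.1, mul_inv_rev, mul_inv_rev, inv_eq_of_mul_eq_one_left xx, mul_assoc]⟩ }
  have l1 : ∀ a ∈ Mon, a ∈ H0 → xiC * a * xiC ∈ Mon → a ∈ L := fun a ha hH hx =>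
    ⟨⟨ha, hx⟩, by rw [mH _ (mul_mem xi_H hH) _ xi_H, mH _ xi_H _ hH]⟩
  have c1 := (unmask_mem_Cs (m := 9471495) (by decide +kernel)).1
  have l2 : pC (perm tt) ∈ L := ⟨⟨pC_mem_Mon tt_M, xi_tt ▸ mul_mem (eps_mem_Mon c1) (pC_mem_Mon tt_M)⟩, by
    rw [h3, h2 _ xi_H, ← M.P.mul _ xi_P _ tt_P, ← M.P.mul _ (mul_mem xi_P tt_P) _ xi_P, ← map_mul, ← map_mul, xi_tt,
      h1 _ (eps_mem_Mon c1) _ (pC_mem_Mon tt_M), h3, h2 _ (eps_H0 c1), map_mul, M.P.mul _ (eps_P c1) _ tt_P]⟩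
  obtain ⟨c, hc, π, hπ, rfl⟩ := mem_Mon_iff.1 ha
  have l3 : pC π ∈ L := by
    obtain ⟨⟨ρ, r⟩, h, rfl⟩ := le_of_words (L := (L.comap pHom).map M24.subtype) (gs := [hh, tt])
      [[1, 0, 0, 0, 0, 1, 0, 0, 1, 0, 0, 1, 0, 1, 0, 1, 0, 0, 1, 0, 1, 0, 0, 1, 0, 0, 0],
        [0, 0, 0, 1, 0, 0, 1, 0, 1, 0, 1, 0, 0, 0, 1, 0, 0, 1, 0, 0, 1, 0, 1]] (by
      simp only [List.forall_mem_cons, List.not_mem_nil, false_imp_iff, implies_true, and_true]
      exact ⟨⟨_, ⟨⟨_, hh_St.1⟩, l1 _ (pC_mem_Mon hh_St.1) (pC_H0 hh_St) xi_hh, rfl⟩, code_perm_chk (by decide +kernel)⟩,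
        ⟨_, ⟨⟨_, tt_M⟩, l2, rfl⟩, code_perm_chk (by decide +kernel)⟩⟩) (by decide +kernel)
      (StS_le ⟨hπ, sext_fix hc hπ hx⟩)
    exact h
  refine (mul_mem (l1 _ (eps_mem_Mon hc) (eps_H0 hc) ?_) l3).2
  rw [x1] at hx
  exact (mul_mem_cancel_right l3.1.2).1 hx

/-- the extension to the whole group -/
theorem exists_phi0 [Finite G] : ∃ φ : Co0 →* G, ∀ a ∈ H0, φ a = Θ (mk1 a) := by
  obtain ⟨ψ, h1, h2, h3⟩ := M.exists_psi
  have c := M.lc_of h1 h2 h3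
  let S := closure ((fun g => (ψ g, g)) '' insert xiC (Mon : Set Co0))
  let e := MulEquiv.ofBijective ((MonoidHom.snd G Co0).comp S.subtype) ⟨(injective_iff_map_eq_one _).2 fun a h =>
    Subtype.ext (c.main geo1 geo2 geo3 geo4 dl2_xi a.2 h), fun g => by
      have : Gn.X0 ≤ ((MonoidHom.snd G Co0).comp S.subtype).range := sup_le
        (fun a ha => ⟨⟨_, subset_closure ⟨a, Or.inr ha, rfl⟩⟩, rfl⟩)
        (zpowers_le.2 ⟨⟨_, subset_closure ⟨_, Or.inl rfl, rfl⟩⟩, rfl⟩)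
      exact this (Gn.X0_top g)⟩
  let φ := ((MonoidHom.fst G Co0).comp S.subtype).comp e.symm.toMonoidHom
  have k : ∀ a ∈ insert xiC (Mon : Set Co0), φ a = ψ a := fun a ha =>
    congrArg (fun x : S => x.1.1) (e.symm_apply_eq.2 rfl : e.symm a = ⟨_, subset_closure ⟨a, ha, rfl⟩⟩)
  exact ⟨φ, fun a ha => H0_ind ((φ.comp H0.subtype).eqLocus (M.H.hom.comp ((mk1.comp H0.subtype).codRestrict _ fun x => mk1_H x.2)))
    (fun h hm => (k _ (Or.inr hm)).trans (h2 _ h.2)) ((k _ (Or.inl rfl)).trans (h2 _ xi_H)) ⟨a, ha⟩⟩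

theorem exists_phi [Finite G] : ∃ φ : Spor.Co1 →* G, Function.Injective φ ∧ ∀ x ∈ centralizer {zb}, φ x = Θ x := by
  obtain ⟨φ, h⟩ := M.exists_phi0
  let ψ : Spor.Co1 →* G := QuotientGroup.lift _ φ fun x hx => by
    rcases M24.mem_center_iff.1 hx with rfl | rfl
    exacts [map_one _, (h _ (mem_cent_iff.2 (ng_comm _).symm)).trans (by rw [mk1_ng, M.H.one])]
  have k : ∀ x ∈ centralizer {zb}, ψ x = Θ x := fun x hx => by
    obtain ⟨g, rfl⟩ := mk1_surj x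
    exact h g (mem_cent_iff.2 (comm_zb.1 (mem_cent_iff.1 hx)))
  refine ⟨ψ, ψ.ker_eq_bot_iff.1 (PM.normal_eq_bot zb_sq (conj_octs O1_mem) ?_ fun x hx c =>
    M.H.inj _ (mem_cent_iff.2 c) (k _ (mem_cent_iff.2 c) ▸ hx)), k⟩
  have h1 := (mem_octads.1 O1_mem).1
  have := conj_octs (o := (O1 ∆ OO)ᶜ) (mem_octads_iff.2 (by decide +kernel))
  rwa [mk1_compl (symmDiff_mem_Cs h1 OO_Cs), ← eps_mul h1 OO_Cs, map_mul] at this

end CA.Typ.Am

theorem CA.realizeEqns_Co1_Ext : True := by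
  have := @CA.Co1.tt.eq_1
  have := @CA.Co1.tt.eq_def
  have := @CA.Co1.tt.congr_simp
  have := @CA.Co1.g2.eq_1
  have := @CA.Co1.g2.eq_def
  have := @CA.Co1.g2.congr_simp
  have := @CA.Co1.g1.eq_1
  have := @CA.Co1.g1.eq_def
  have := @CA.Co1.g1.congr_simp
  have := @CA.Co1.PP.eq_1
  have := @CA.Co1.PP.eq_def
  have := @CA.Co1.PP.congr_simp
  have := @CA.Co1.Rk.eq_1.{0}
  have := @CA.Co1.Rk.eq_def.{0}
  have := @CA.Co1.Rk.congr_simp.{0}
  have := @CA.Co1.Jn.eq_1.{0}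
  have := @CA.Co1.Jn.eq_def.{0}
  have := @CA.Co1.Jn.congr_simp.{0}
  have := @CA.Co1.mev.eq_1
  have := @CA.Co1.mev.eq_def
  have := @CA.Co1.mev.congr_simp
  have := @CA.Co1.zf.eq_1
  have := @CA.Co1.zf.eq_def
  have := @CA.Co1.zf.congr_simp
  have := @CA.Co1.rr.eq_1
  have := @CA.Co1.rr.eq_def
  have := @CA.Co1.rr.congr_simp
  have := @CA.Co1.hh.eq_1
  have := @CA.Co1.hh.eq_def
  have := @CA.Co1.hh.congr_simp
  trivial
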