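/-
The image of the embedding is the whole group.
-/
import Cfsg.Agent.Co1.Ext
import Cfsg.Agent.Fi.Dihedral

set_option autoImplicit false
set_option maxRecDepth 100000

namespace CA.Co1

open Cfsg Equiv CA.M24 CA.Typ CA.Fi Subgroup
open scoped Pointwise symmDiff

universe u

variable {G : Type u} [Group G]

local notation "Λ" => leechLattice

theorem norm_le [Finite G] {G0 A : Subgroup G} {z : G}
    (F1 : ∀ x ∈ G0, IsConj z x → ∀ g, g * x * g⁻¹ ∈ G0 → g ∈ G0) (hA : A ≤ G0)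
    (Ac : ∀ x ∈ A, ∀ y ∈ A, Commute x y) (Aq : ∀ x ∈ A, x * x = 1) (zA : z ∈ A)
    (hN : ∀ t ∈ A, t ≠ 1 → ¬ IsConj z t → ∀ g ∈ G0, Commute g t → ∀ a ∈ A, g * a * g⁻¹ ∈ A)
    (hT : ∀ E ≤ A, E ≠ ⊥ → (∀ x ∈ E, ¬ IsConj z x) → ∃ a ∈ A, ∃ b ∈ A, IsConj z a ∧ IsConj z b ∧
      ∀ g ∈ G0, (∀ e ∈ E, Commute g e) → g * a * g⁻¹ * b ∉ E)
    (E : Subgroup G) (hE : E ≤ A) (h0 : E ≠ ⊥) (u : G) (hu : ∀ e ∈ E, u * e * u⁻¹ ∈ E) : u ∈ G0 := by
  induction E using WellFoundedGT.induction generalizing u with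
  | ind E ih =>
  by_cases zf : ∀ x ∈ E, ¬ IsConj z x
  swap
  · push Not at zf
    obtain ⟨x, hx, e⟩ := zf
    exact F1 x (hA (hE hx)) e u (hA (hE (hu x hx)))
  suffices H : ∀ c ∈ centralizer (E : Set G), c ∈ G0 by
    refine F1 z (hA zA) (IsConj.refl z) u (H _ (mem_cent_subgroup_iff.2 fun e he => ?_))
    have := Ac z zA _ (hE ((mem_normalizer_iff''.1 (Loc.mem_norm_of_conj_mem hu) e).1 he))
    calc u * z * u⁻¹ * e = u * (z * (u⁻¹ * e * u)) * u⁻¹ := by group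
      _ = _ := by rw [this.eq]; group
  intro c hc
  by_contra c0
  obtain ⟨a, ha, b, hb, ia, ib, hab⟩ := hT E hE h0 zf
  obtain ⟨⟨t, ht⟩, t1⟩ := ne_bot_iff_exists_ne_one.1 h0
  have nA := hN t (hE ht) (fun e => t1 (Subtype.ext e)) (zf t ht)
  have AC : ∀ x ∈ A, x ∈ centralizer (E : Set G) := fun x hx => mem_cent_subgroup_iff.2 fun e he => Ac x hx e (hE he)
  have cm : ∀ x : centralizer (E : Set G), ∀ e ∈ E, Commute (x : G) e := fun x => mem_cent_subgroup_iff.1 x.2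
  haveI : (E.subgroupOf (centralizer (E : Set G))).Normal := ⟨fun n hn g => by
    rw [mem_subgroupOf] at hn ⊢
    simpa [(cm g _ hn).eq] using hn⟩
  let q := QuotientGroup.mk' (E.subgroupOf (centralizer (E : Set G)))
  have qe : ∀ x y, q x = q y → ∃ e ∈ E, (y : G) = x * e := fun x y h =>
    ⟨_, mem_subgroupOf.1 (QuotientGroup.eq.1 h), by simp⟩
  let a' : centralizer (E : Set G) := ⟨a, AC a ha⟩
  let v : centralizer (E : Set G) := ⟨c, hc⟩ * ⟨b, AC b hb⟩ * ⟨c, hc⟩⁻¹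
  have hv : (v : G) = c * b * c⁻¹ := rfl
  have a2 : q a' * q a' = 1 := by rw [← map_mul, show a' * a' = 1 from Subtype.ext (Aq a ha), map_one]
  have v2 : q v * q v = 1 := by
    rw [← map_mul, show v * v = 1 from Subtype.ext (by
      show c * b * c⁻¹ * (c * b * c⁻¹) = 1
      rw [conj_mul, Aq b hb]; simp), map_one]
  have cj : ∀ x y, IsConj (q x) (q y) → ∃ d : centralizer (E : Set G), ∃ e ∈ E, (d : G) * x * (d : G)⁻¹ = y * e := by
    intro x y h
    obtain ⟨d, h⟩ := isConj_iff.1 h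
    obtain ⟨d, rfl⟩ := QuotientGroup.mk'_surjective _ d
    obtain ⟨e, he, r⟩ := qe y (d * x * d⁻¹) (by rw [map_mul, map_mul, map_inv]; exact h.symm)
    exact ⟨d, e, he, r⟩
  obtain ⟨k, k1, k2⟩ := dih_exists_of_even (dih_even_of_not_isConj a2 v2 fun h => by
    obtain ⟨d, e, he, r⟩ := cj _ _ h
    have r1 : c⁻¹ * d * a * (c⁻¹ * d)⁻¹ = b * e := by
      calc _ = c⁻¹ * (d * a * (d : G)⁻¹) * c := by group
        _ = b * (c⁻¹ * (e * c)) := by rw [show (d : G) * a * (d : G)⁻¹ = _ from r, hv]; group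
        _ = _ := by rw [← (cm ⟨c, hc⟩ e he).eq]; group
    refine hab (c⁻¹ * d) (F1 a (hA ha) ia _ (r1 ▸ hA (mul_mem hb (hE he)))) (cm (⟨c, hc⟩⁻¹ * d)) ?_
    rwa [r1, (Ac b hb e (hE he)).eq, mul_assoc, Aq b hb, mul_one])
  have k3 := dih_commute a2 v2 k1
  have k4 := dih_isConj_or a2 v2 k
  rw [← map_mul, ← map_pow] at k2 k3 k4
  generalize (a' * v) ^ k = i at k2 k3 k4
  have cq : ∀ x y, Commute (q x) (q y) → ∃ e ∈ E, (x : G) * y * (x : G)⁻¹ = y * e := fun x y h =>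
    qe y (x * y * x⁻¹) (by rw [map_mul, map_mul, map_inv, h.eq, mul_inv_cancel_right])
  obtain ⟨e1, he1, r1⟩ := cq _ _ k3.1.symm
  have i0 : (i : G) ∈ G0 := F1 a (hA ha) ia _ (r1 ▸ hA (mul_mem ha (hE he1)))
  have iA : (i : G) ∈ A := by
    have key : ∀ x ∈ A, IsConj z x → ∀ d : centralizer (E : Set G), ∀ e ∈ E, (d : G) * x * (d : G)⁻¹ = a * i * e →
        (i : G) ∈ A := fun x hx ix d e he r => by
      have := nA d (F1 x (hA hx) ix _ (r ▸ mul_mem (mul_mem (hA ha) i0) (hA (hE he)))) (cm d t ht) x hx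
      rwa [r, mul_mem_cancel_right (hE he), mul_mem_cancel_left ha] at this
    rw [← map_mul] at k4
    rcases k4 with h | h <;> obtain ⟨d, e, he, r⟩ := cj _ _ h
    · exact key a ha ia d e he r
    · exact key b hb ib (d * ⟨c, hc⟩) e he (by rw [← show _ = a * i * e from r, hv]; simp [mul_assoc])
  obtain ⟨e2, he2, r2⟩ := cq _ _ k3.2
  have := ih (E ⊔ zpowers (i : G)) (left_lt_sup.2 fun h => k2 ((QuotientGroup.eq_one_iff i).2 (h (mem_zpowers _))))
    (sup_le hE (zpowers_le.2 iA)) (fun h => h0 (le_bot_iff.1 (h ▸ le_sup_left))) v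
    (show E ⊔ zpowers (i : G) ≤ (E ⊔ zpowers (i : G)).comap (MulAut.conj (v : G)).toMonoidHom from sup_le
      (fun e he => show (v : G) * e * (v : G)⁻¹ ∈ E ⊔ zpowers (i : G) by
        rw [(cm v e he).eq, mul_inv_cancel_right]; exact mem_sup_left he)
      (zpowers_le.2 (show (v : G) * i * (v : G)⁻¹ ∈ E ⊔ zpowers (i : G) by
        rw [r2]; exact mul_mem (mem_sup_right (mem_zpowers _)) (mem_sup_left he2))))
  exact c0 (F1 b (hA hb) ib c this)

theorem supp_act' {D : Finset Pt} (hD : D ∈ Cs) {g : Co0} (hg : Commute g (eps D)) {x : Vec} (hx : x ∈ Λ)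
    (h : ∀ i, i ∉ D → x i = 0) (i : Pt) (hi : i ∉ D) : act g x i = 0 := by
  have e : sgn D x = -x := funext fun i => by
    by_cases hi : i ∈ D
    · exact sgn_of_mem _ hi
    · rw [sgn_of_notMem _ hi, Pi.neg_apply, h i hi, neg_zero]
  refine zero_of_sgn' ?_ hi
  rw [← act_eps hD (act_mem _ hx), ← act_mul, ← hg.eq, act_mul, act_eps hD hx, e, act_neg _ hx]

theorem four_dvd_of_supp {D : Finset Pt} (hD : D ∈ dodecads) {y : Vec} (hy : y ∈ Λ) (h : ∀ i, i ∉ D → y i = 0)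
    (hn : sqNorm y = 32) (p : Pt) : 4 ∣ y p := by
  obtain ⟨D1, D2⟩ := mem_dodecads.1 hD
  obtain ⟨m, hm, c, hc, w, e, -⟩ := leech_cases hy
  have h5 : ∀ i, i ∉ D → m = 0 ∧ i ∉ c := fun i hi => by
    have := e i
    rw [h i hi] at this
    rcases ind_cases c i with ⟨a, b⟩ | ⟨a, b⟩ <;> rw [b] at this
    · omega
    · exact ⟨by omega, a⟩
  obtain ⟨q, hq⟩ := exists_notMem D (by omega)
  obtain rfl := (h5 q hq).1
  have h6 : c ⊆ D := fun i hi => by_contra fun e => (h5 i e).2 hi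
  have h7 := card_symmDiff_add c D
  rw [Finset.inter_eq_left.2 h6] at h7
  have h8 := card_mul_le_sqNorm y c 4 fun i hi => by
    have := e i
    rw [ind_of_mem hi] at this
    have h := one_le_sq_of_odd (a := 1 + 2 * w i) rfl
    rw [show y i ^ 2 = 4 * (1 + 2 * w i) ^ 2 by rw [this]; ring]
    omega
  have h9 : c = ∅ := Finset.card_eq_zero.1 (by
    have := card_of_mem_Cs hc; have := card_of_mem_Cs (symmDiff_mem_Cs hc D1); omega)
  rw [e, h9, ind_empty]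
  exact ⟨w p, by simp⟩

theorem mon_of_comm_dod {D : Finset Pt} (hD : D ∈ dodecads) {g : Co0} (hg : Commute g (eps D)) : g ∈ Mon := by
  obtain ⟨D1, D2⟩ := mem_dodecads.1 hD
  obtain ⟨p, hp⟩ := Finset.card_pos.1 (show 0 < D.card by omega)
  have hs := supp_act' D1 hg (e8_mem p) fun i hi => e8_ne (by rintro rfl; exact hi hp)
  have hn : sqNorm (act g (e8 p)) = 64 := by rw [sqNorm_act, sqNorm_e8]
  have k : ∀ r ∈ Λ, (∀ i, i ∉ D → r i = 0) → sqNorm r = 32 → 32 ∣ dotInt (act g (e8 p)) r := fun r hr h1 h2 => by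
    obtain ⟨n, e⟩ := four_dvd_of_supp hD (act_mem g⁻¹ hr) (supp_act' D1 hg.inv_left hr h1) (by rw [sqNorm_act, h2]) p
    rw [← act_act_inv g r, dot_act _ (e8_mem p) (act_mem _ hr), dot_comm, dot_e8, e]
    exact ⟨n, by ring⟩
  generalize hw : act g (e8 p) = w at hs hn k
  have k1 : ∀ i ∈ D, ∀ j ∈ D, i ≠ j → 8 ∣ w i + w j ∧ 8 ∣ w i - w j := fun i hi j hj ne => by
    have s : ∀ l, l ∉ D → ind {i} l = 0 ∧ ind {j} l = 0 := fun l hl =>
      ⟨ind_single_ne (by rintro rfl; exact hl hi), ind_single_ne (by rintro rfl; exact hl hj)⟩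
    have a := k _ (vp_mem i j) (fun l hl => by simp [vp, s l hl]) (sqNorm_vp ne)
    have b := k _ (vm_mem i j) (fun l hl => by simp [vm, s l hl]) (sqNorm_vm ne)
    rw [dot_vp] at a
    rw [dot_vm] at b
    omega
  obtain ⟨q, hq⟩ : ∃ q, w q ≠ 0 := by
    by_contra! e
    rw [show w = 0 from funext e, sqNorm_zero] at hn
    exact absurd hn (by decide)
  have qD : q ∈ D := by_contra fun e => hq (hs q e)
  refine mon_of_e8 (p := p) (q := q) fun i hi => ?_
  rw [hw]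
  by_contra hi0
  have iD : i ∈ D := by_contra fun e => hi0 (hs i e)
  have a := k1 i iD q qD hi
  by_cases h8 : 8 ∣ w q
  · have := card_mul_le_sqNorm w {i, q} 64 fun j hj => by
      have : w j ≤ -8 ∨ 8 ≤ w j := by
        rcases Finset.mem_insert.1 hj with rfl | hj
        · omega
        · rw [Finset.mem_singleton.1 hj]; omega
      rcases this with h | h <;> nlinarith
    rw [Finset.card_pair hi] at this
    omega
  · have := card_mul_le_sqNorm w D 16 fun j hj => by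
      have : w j ≤ -4 ∨ 4 ≤ w j := by
        by_cases e : j = q
        · rw [e]; omega
        · have := k1 j hj q qD e; omega
      rcases this with h | h <;> nlinarith
    omega

theorem mon_of_comm_dod' {D : Finset Pt} (hD : D ∈ dodecads) {g : Co0} (hg : Commute (mk1 g) (mk1 (eps D))) :
    g ∈ Mon := by
  obtain ⟨D1, D2⟩ := mem_dodecads.1 hD
  have := hg.eq
  rw [← map_mul, ← map_mul, mk1_eq, ← mul_assoc, ng_mul_eps D1] at this
  rcases this with e | e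
  · exact mon_of_comm_dod hD e
  · obtain ⟨π, hπ, r⟩ := dodecad_transitive (o := Dᶜ) (mem_dodecads.2 ⟨compl_mem_Cs D1, by
      rw [Finset.card_compl, card_Pt, D2]⟩) hD
    refine (mul_mem_cancel_left (pC_mem_Mon hπ)).1 (mon_of_comm_dod hD ?_)
    rw [Commute, SemiconjBy, mul_assoc, e, ← mul_assoc, pC_mul_eps hπ (compl_mem_Cs D1), r, mul_assoc]

theorem ncard_dod {D : Finset Pt} (hD : D ∈ dodecads) : {o | o ∈ octads ∧ o ∆ D ∈ octads}.ncard = 132 := by
  obtain ⟨π, hπ, rfl⟩ := dodecad_transitive D0_mem hD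
  have := Set.ncard_smul_set π {o | o ∈ octads ∧ o ∆ unmask D0 ∈ octads}
  rw [ncard_octads_filter (fun m => isO (Nat.xor m D0)) {o | o ∈ octads ∧ o ∆ unmask D0 ∈ octads} fun o => by
      rw [Set.mem_setOf, mem_octads_iff (s := o ∆ _), mask_symmDiff, mask_D0],
    show octT.cnt (fun m => isO (Nat.xor m D0)) = 132 by decide +kernel] at this
  rw [← this]
  congr 1
  ext o
  rw [Set.mem_smul_set_iff_inv_smul_mem, Set.mem_setOf, Set.mem_setOf, smul_mem_octads_iff (inv_mem hπ),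
    ← smul_mem_octads_iff hπ (s := (π⁻¹ • o) ∆ _), smul_symmDiff', smul_inv_smul]

theorem no_trans {F : Finset (Finset Pt)} (h1 : ∀ c ∈ F, c = ∅ ∨ c = Finset.univ ∨ c ∈ dodecads) (h2 : ∅ ∈ F)
    (h3 : Finset.univ ∈ F) (h4 : ∀ c ∈ F, ∀ d ∈ F, c ∆ d ∈ F) (h5 : F.card ∣ 4096) (h6 : F.card ≠ 2)
    (h : ∀ o ∈ octads, ∃ π ∈ M24, (∀ c ∈ F, π • c ∈ F) ∧ (π • OO) ∆ o ∈ F) : False := by
  classical
  let X := octads.toFinite.toFinset
  have hX : ∀ o, o ∈ X ↔ o ∈ octads := fun o => Set.Finite.mem_toFinset _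
  have k : ∀ o ∈ X, (F.filter fun c => o ∆ c ∈ octads).card = (F.filter fun c => OO ∆ c ∈ octads).card := fun o ho => by
    obtain ⟨π, hπ, a, b⟩ := h o ((hX o).1 ho)
    have inj : Function.Injective fun c => (π • c) ∆ ((π • OO) ∆ o) := fun c d e =>
      MulAction.injective π (symmDiff_left_injective _ e)
    have e : F.image (fun c => (π • c) ∆ ((π • OO) ∆ o)) = F := Finset.eq_of_subset_of_card_le
      (Finset.image_subset_iff.2 fun c hc => h4 _ (a c hc) _ b) (Finset.card_image_of_injective _ inj).ge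
    conv_lhs => rw [← e, Finset.filter_image, Finset.card_image_of_injective _ inj]
    refine congrArg _ (Finset.filter_congr fun c _ => ?_)
    rw [← smul_mem_octads_iff hπ (s := OO ∆ c), smul_symmDiff', symmDiff_comm o, symmDiff_assoc,
      symmDiff_symmDiff_cancel_right, symmDiff_comm]
  have c1 : X.card = 759 := by rw [← ncard_octads, Set.ncard_eq_toFinset_card _ octads.toFinite]
  have c2 := Finset.sum_card_bipartiteAbove_eq_sum_card_bipartiteBelow (s := X) (t := F) fun o c => o ∆ c ∈ octads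
  have ne : (Finset.univ : Finset Pt) ≠ ∅ := by decide
  have u : Finset.univ ∈ F.erase ∅ := Finset.mem_erase.2 ⟨ne, h3⟩
  simp only [Finset.bipartiteAbove, Finset.bipartiteBelow] at c2
  rw [Finset.sum_congr rfl k, Finset.sum_const, c1, ← Finset.add_sum_erase _ _ h2, ← Finset.add_sum_erase _ _ u,
    Finset.filter_true_of_mem (s := X) (fun o ho => by rw [show o ∆ ∅ = o from symmDiff_bot o]; exact (hX o).1 ho), c1,
    Finset.filter_false_of_mem (s := X) (fun o ho e => by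
      have := (mem_octads.1 e).2
      rw [show o ∆ Finset.univ = oᶜ from symmDiff_top' o, Finset.card_compl, card_Pt, (mem_octads.1 ((hX o).1 ho)).2] at this
      omega),
    Finset.sum_congr rfl (g := fun _ => 132) (fun c hc => by
      simp only [Finset.mem_erase] at hc
      rw [← ncard_dod (((h1 c hc.2.2).resolve_left hc.2.1).resolve_left hc.1), ← Set.ncard_coe_finset]
      exact congrArg _ (Set.ext fun o => by simp [hX])),
    Finset.sum_const, Finset.card_erase_of_mem u, Finset.card_erase_of_mem h2] at c2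
  have c3 := Finset.card_le_card (show F ⊆ (dodecads.toFinite.toFinset ∪ {∅, Finset.univ}) from fun c hc => by
    rcases h1 c hc with e | e | e <;> simp [e])
  have c4 := Finset.card_union_le dodecads.toFinite.toFinset {∅, Finset.univ}
  rw [← Set.ncard_eq_toFinset_card, ncard_dodecads, Finset.card_pair ne.symm] at c4
  have c5 := Finset.card_pos.2 ⟨_, u⟩
  rw [Finset.card_erase_of_mem h2] at c5
  obtain ⟨j, hj, e⟩ := (Nat.dvd_prime_pow Nat.prime_two (m := 12)).1 h5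
  simp only [smul_eq_mul, Finset.card_empty] at c2
  rw [e] at c2 c3 c5 h6
  interval_cases j <;> omega

theorem am_id : Am id Qb zb sb Qb zb sb :=
  ⟨⟨fun _ _ _ _ => rfl, fun _ h => h, fun y h => ⟨y, h, rfl⟩, fun _ _ h => h⟩,
    ⟨fun _ _ _ _ => rfl, fun _ h => h, fun y h => ⟨y, h, rfl⟩, fun _ _ h => h⟩, rfl, rfl, fun _ h => h⟩

theorem inv_Co1 {x : Spor.Co1} (h : x * x = 1) (h1 : x ≠ 1) :
    IsConj zb x ∨ IsConj (mk1 (eps (unmask D0))) x ∨ IsConj (mk1 bb) x :=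
  (am_id.inv_cases le_Qb (orderOf_eq_prime ((pow_two x).trans h) h1)).imp IsConj.symm (Or.imp IsConj.symm IsConj.symm)

theorem lift_sq {a g : Co0} (h : IsConj (mk1 a) (mk1 g)) : (a * a = 1 → g * g = 1) ∧ (a * a = ng → g * g = ng) := by
  obtain ⟨k, e⟩ := isConj_iff.1 h
  obtain ⟨k, rfl⟩ := mk1_surj k
  rw [← map_inv, ← map_mul, ← map_mul, eq_comm, mk1_eq] at e
  have : g * g = k * (a * a) * k⁻¹ := by
    rcases e with rfl | rfl
    · group
    · rw [mul_assoc, ← mul_assoc _ ng, ng_comm, mul_assoc, ← mul_assoc ng, ng_mul_ng]; group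
  exact ⟨fun h => by rw [this, h]; group, fun h => by rw [this, h, ng_comm]; group⟩

/-- a group of Conway type is the first Conway group -/
theorem ident [Finite G] {Θ : Spor.Co1 → G} {Q Qs : Subgroup G} {z s : G} (h : TH Q Qs z s 512 174182400)
    (M : Am Θ Qb zb sb Q z s) : ∃ φ : Spor.Co1 ≃* G, ∀ x ∈ centralizer {zb}, φ x = Θ x := by
  classical
  obtain ⟨φ, inj, hφ⟩ := M.exists_phi
  refine ⟨MulEquiv.ofBijective φ ⟨inj, ?_⟩, hφ⟩
  have hD := (mem_dodecads.1 D0_mem).1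
  have pz : φ zb = z := (hφ _ (mem_cent_iff.2 (Commute.refl _))).trans M.z
  have pe : ∀ c ∈ Cs, φ (mk1 (eps c)) = Θ (mk1 (eps c)) := fun c hc => hφ _ (eps_H hc)
  have d1 := M.dvd_cent_t
  have d2 := M.not_dvd_cent_b h
  rw [← pe _ hD] at d1
  rw [← hφ _ bb_H] at d2
  have n1 : ¬ IsConj z (φ (mk1 (eps (unmask D0)))) := fun e => by
    rw [← card_cent_conj e, h.cH] at d1
    exact absurd d1 (by decide)
  have n2 : ¬ IsConj z (φ (mk1 bb)) := fun e => by
    rw [← card_cent_conj e, h.cH] at d2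
    exact d2 (by decide)
  have n3 : ¬ IsConj (φ (mk1 (eps (unmask D0)))) (φ (mk1 bb)) := fun e => by
    rw [← card_cent_conj e] at d2
    exact d2 (Dvd.dvd.trans (by decide) d1)
  have z2 := h.left.z_sq
  have t2 : φ (mk1 (eps (unmask D0))) * φ (mk1 (eps (unmask D0))) = 1 := by
    rw [← map_mul, ← map_mul, eps_mul_self hD, map_one, map_one]
  have t1 : φ (mk1 (eps (unmask D0))) ≠ 1 := fun e =>
    absurd ((M.a_inj hD empty_mem_Cs).1 ((pe _ hD).symm.trans (e.trans M.a_empty.symm))) (by decide +kernel)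
  have ic : ∀ x, φ x * φ x = 1 → φ x ≠ 1 → IsConj zb x ∨ IsConj (mk1 (eps (unmask D0))) x ∨ IsConj (mk1 bb) x :=
    fun x a b => inv_Co1 (inj (by rwa [map_mul, map_one])) fun e => b (by rw [e, map_one])
  have cj : ∀ {a x : G}, a * a = 1 → a ≠ 1 → IsConj a x → x * x = 1 ∧ x ≠ 1 := fun a b c => by
    obtain ⟨g, rfl⟩ := isConj_iff.1 c
    exact ⟨by rw [conj_mul, a]; simp, by simpa using b⟩
  have f1 : ∀ x, IsConj z (φ x) → IsConj zb x := fun x e => by
    rcases ic x (cj z2 h.left.z_ne e).1 (cj z2 h.left.z_ne e).2 with r | r | r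
    exacts [r, (n1 (e.trans (φ.map_isConj r).symm)).elim, (n2 (e.trans (φ.map_isConj r).symm)).elim]
  have f2 : ∀ x, IsConj (φ (mk1 (eps (unmask D0)))) (φ x) → IsConj (mk1 (eps (unmask D0))) x := fun x e => by
    rcases ic x (cj t2 t1 e).1 (cj t2 t1 e).2 with r | r | r
    exacts [(n1 ((pz ▸ φ.map_isConj r).trans e.symm)).elim, r, (n3 (e.trans (φ.map_isConj r).symm)).elim]
  have gen : ∀ a, (∀ c, Commute c (φ a) → c ∈ φ.range) → (∀ x, IsConj (φ a) (φ x) → IsConj a x) →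
      ∀ x ∈ φ.range, IsConj (φ a) x → ∀ g, g * x * g⁻¹ ∈ φ.range → g ∈ φ.range := by
    rintro a h1 h2 _ ⟨x, rfl⟩ e g ⟨y, hy⟩
    obtain ⟨u, rfl⟩ := isConj_iff.1 (h2 x e)
    obtain ⟨v, rfl⟩ := isConj_iff.1 (h2 y (hy ▸ e.trans (isConj_iff.2 ⟨g, rfl⟩)))
    simp only [map_mul, map_inv] at hy
    have := h1 ((φ v)⁻¹ * g * φ u) (conj_eq_iff_commute.1 (by
      calc _ = (φ v)⁻¹ * (g * (φ u * φ a * (φ u)⁻¹) * g⁻¹) * φ v := by group
        _ = _ := by rw [← hy]; group))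
    rwa [mul_mem_cancel_right (show φ u ∈ φ.range from ⟨u, rfl⟩),
      mul_mem_cancel_left (inv_mem (show φ v ∈ φ.range from ⟨v, rfl⟩))] at this
  have F1 := gen zb (fun c hc => by
    obtain ⟨x, hx, rfl⟩ := M.H.surj c (mem_cent_iff.2 (pz ▸ hc))
    exact ⟨x, hφ x hx⟩) (pz ▸ f1)
  rw [pz] at F1
  have oc : ∀ o ∈ octads, IsConj z (Θ (mk1 (eps o))) := fun o ho =>
    pz ▸ pe o (mem_octads.1 ho).1 ▸ φ.map_isConj (conj_octs ho)
  have dod : ∀ c ∈ Cs, ¬ IsConj z (Θ (mk1 (eps c))) → c = ∅ ∨ c = Finset.univ ∨ c ∈ dodecads := fun c hc n => by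
    rcases card_of_mem_Cs hc with r | r | r | r | r
    · exact Or.inl (Finset.card_eq_zero.1 r)
    · exact (n (oc c (mem_octads.2 ⟨hc, r⟩))).elim
    · exact Or.inr (Or.inr (mem_dodecads.2 ⟨hc, r⟩))
    · exact (n (mk1_compl hc ▸ oc cᶜ (mem_octads.2 ⟨compl_mem_Cs hc, by rw [Finset.card_compl, card_Pt, r]⟩))).elim
    · exact Or.inr (Or.inl (Finset.eq_univ_of_card _ (r.trans card_Pt.symm)))
  have un : Θ (mk1 (eps Finset.univ)) = 1 := by rw [← Finset.compl_empty, mk1_compl empty_mem_Cs, M.a_empty]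
  have nm : ∀ t ∈ M.A, t ≠ 1 → ¬ IsConj z t → ∀ g ∈ φ.range, Commute g t → ∃ π ∈ M24, Rk Θ g π := by
    rintro t ht t1 n _ ⟨g, rfl⟩ hg
    obtain ⟨c, hc, rfl⟩ := M.mem_A.1 ht
    obtain ⟨g, rfl⟩ := mk1_surj g
    rcases dod c hc n with rfl | rfl | r
    exacts [(t1 M.a_empty).elim, (t1 un).elim, by
      obtain ⟨d, hd, π, hπ, rfl⟩ := mem_Mon_iff.1 (mon_of_comm_dod' r (g := g) (inj (by
        rw [map_mul, map_mul, pe c hc]; exact hg.eq)))
      exact ⟨π, hπ, fun e he => by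
        rw [← pe e he, ← map_inv, ← map_mul, ← map_mul, ← map_inv, ← map_mul, ← map_mul, mono_conj_eps hd he hπ,
          pe _ (smul_mem_Cs hπ he)]⟩]
  have hA : M.A ≤ φ.range := fun a ha => by
    obtain ⟨c, hc, rfl⟩ := M.mem_A.1 ha
    exact ⟨_, pe c hc⟩
  have N := norm_le F1 hA (fun _ a _ b => M.A_comm a b) (fun _ => M.A_sq) M.z_mem_A (fun t ht t1 n g hg c a ha => by
    obtain ⟨π, hπ, r⟩ := nm t ht t1 n g hg c
    obtain ⟨d, hd, rfl⟩ := M.mem_A.1 ha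
    exact r d hd ▸ M.a_mem (smul_mem_Cs hπ hd)) (fun E hE h0 zf => by
    by_contra! H
    obtain ⟨⟨t, ht⟩, t1⟩ := ne_bot_iff_exists_ne_one.1 h0
    let F := Finset.univ.filter fun c => c ∈ Cs ∧ Θ (mk1 (eps c)) ∈ E
    have hF : ∀ c, c ∈ F ↔ c ∈ Cs ∧ Θ (mk1 (eps c)) ∈ E := fun c => Finset.mem_filter_univ c
    have cF : F.card = Nat.card ↥(Sg ⊓ E.comap (φ.comp mk1)) := by
      rw [← Nat.card_eq_finsetCard]
      refine Nat.card_congr (Equiv.ofBijective (fun c => ⟨eps c.1, ⟨_, ((hF _).1 c.2).1, rfl⟩,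
        show φ (mk1 _) ∈ E from pe _ ((hF _).1 c.2).1 ▸ ((hF _).1 c.2).2⟩) ⟨fun a b e => Subtype.ext
          (eps_inj ((hF _).1 a.2).1 ((hF _).1 b.2).1 (congrArg Subtype.val e)), ?_⟩)
      rintro ⟨_, ⟨c, hc, rfl⟩, e⟩
      exact ⟨⟨c, (hF c).2 ⟨hc, pe c hc ▸ e⟩⟩, rfl⟩
    have F0 : ∅ ∈ F := (hF _).2 ⟨empty_mem_Cs, M.a_empty ▸ one_mem E⟩
    have F1 : Finset.univ ∈ F := (hF _).2 ⟨univ_mem_Cs, un ▸ one_mem E⟩
    refine no_trans (F := F) (fun c hc => dod c ((hF c).1 hc).1 (zf _ ((hF c).1 hc).2)) F0 F1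
      (fun c hc d hd => (hF _).2 ⟨symmDiff_mem_Cs ((hF c).1 hc).1 ((hF d).1 hd).1,
        M.a_mul ((hF c).1 hc).1 ((hF d).1 hd).1 ▸ mul_mem ((hF c).1 hc).2 ((hF d).1 hd).2⟩)
      (cF ▸ card_Sg ▸ card_dvd_of_le inf_le_left) (fun e => ?_) fun o ho => ?_
    · obtain ⟨c, hc, rfl⟩ := M.mem_A.1 (hE ht)
      have := Finset.eq_of_subset_of_card_le (s := {∅, Finset.univ}) (t := F)
        (by simp [Finset.insert_subset_iff, F0, F1]) (by rw [e, Finset.card_pair (by decide)])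
      have := this ▸ (hF c).2 ⟨hc, ht⟩
      simp only [Finset.mem_insert, Finset.mem_singleton] at this
      rcases this with rfl | rfl
      exacts [t1 (Subtype.ext M.a_empty), t1 (Subtype.ext un)]
    · have o1 := (mem_octads.1 ho).1
      obtain ⟨g, hg, c, r⟩ := H _ (M.a_mem OO_Cs) _ (M.a_mem o1) (oc _ O0_mem) (oc _ ho)
      obtain ⟨π, hπ, k⟩ := nm t (hE ht) (fun e => t1 (Subtype.ext e)) (zf t ht) g hg (c t ht)
      refine ⟨π, hπ, fun d hd => (hF _).2 ⟨smul_mem_Cs hπ ((hF d).1 hd).1, ?_⟩,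
        (hF _).2 ⟨symmDiff_mem_Cs (smul_mem_Cs hπ OO_Cs) o1, ?_⟩⟩
      · rw [← k d ((hF d).1 hd).1, (c _ ((hF d).1 hd).2).eq, mul_inv_cancel_right]
        exact ((hF d).1 hd).2
      · rwa [← M.a_mul (smul_mem_Cs hπ OO_Cs) o1, ← k _ OO_Cs])
  have F2 := gen _ (fun c hc => N (zpowers _) (zpowers_le.2 (pe _ hD ▸ M.a_mem hD)) (zpowers_ne_bot.2 t1) c
    fun e he => by
      obtain ⟨n, rfl⟩ := mem_zpowers_iff.1 he
      rwa [(hc.zpow_right n).eq, mul_inv_cancel_right]) f2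
  intro g
  by_contra hg
  have iy : IsConj (φ (mk1 (eps (unmask D0)))) (g * φ (mk1 (eps (unmask D0))) * g⁻¹) := isConj_iff.2 ⟨g, rfl⟩
  have y0 : g * φ (mk1 (eps (unmask D0))) * g⁻¹ ∉ φ.range := fun e => hg (F2 _ ⟨_, rfl⟩ (IsConj.refl _) g e)
  generalize g * φ (mk1 (eps (unmask D0))) * g⁻¹ = y at iy y0
  have y2 := (cj t2 t1 iy).1
  obtain ⟨k, k1, k2⟩ := dih_exists_of_even (dih_even_of_not_isConj z2 y2 fun e => n1 (e.trans iy.symm))
  have k3 := dih_commute z2 y2 k1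
  have k4 := dih_isConj_or z2 y2 k
  generalize (z * y) ^ k = i at k1 k2 k3 k4
  obtain ⟨x, rfl⟩ := F1 z ⟨_, pz⟩ (IsConj.refl z) i (by rw [← k3.1.eq, mul_inv_cancel_right]; exact ⟨_, pz⟩)
  have k5 : y * φ x * y⁻¹ ∈ φ.range := by rw [k3.2.eq, mul_inv_cancel_right]; exact ⟨_, rfl⟩
  rcases ic x k1 k2 with r | r | r
  · exact y0 (F1 _ ⟨x, rfl⟩ (pz ▸ φ.map_isConj r) y k5)
  · exact y0 (F2 _ ⟨x, rfl⟩ (φ.map_isConj r) y k5)
  obtain ⟨x, rfl⟩ := mk1_surj x
  have c : Commute x (eps OO) := comm_zb.1 (inj (by rw [map_mul, map_mul, pz]; exact k3.1.symm.eq))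
  have e1 : eps OO * x * (eps OO * x) = ng := by
    rw [mul_assoc, ← mul_assoc x, c.eq, mul_assoc, (lift_sq r).2 bb_sq, ← mul_assoc, eps_mul_self OO_Cs, one_mul]
  have e2 : z * φ (mk1 x) = φ (mk1 (eps OO * x)) := by rw [map_mul, map_mul, ← pz]; rfl
  rw [e2] at k4
  refine ng_ne_one (e1.symm.trans ?_)
  rcases k4 with r | r
  exacts [(lift_sq (f1 _ r)).1 (eps_mul_self OO_Cs), (lift_sq (f2 _ (iy.trans r))).1 (eps_mul_self hD)]

end CA.Co1
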